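import Cfsg.Agent.Lib.Golay.Objs

/-!
Invariant subspaces of the binary permutation module of `M24`.
-/

set_option autoImplicit false

namespace CA.Gol
open Cfsg
open scoped Pointwise

/-- a family of sets closed under symmetric difference and under `M24` -/
structure InvFam (P : Finset GolayPt → Prop) : Prop where
  empty : P ∅
  sd : ∀ s t, P s → P t → P (symmDiff s t)
  smul : ∀ g ∈ M24, ∀ s, P s → P (g • s)

theorem InvFam.of_octad {P : Finset GolayPt → Prop} (h : InvFam P) {o : Finset GolayPt} (ho : o ∈ octads)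
    (hP : P o) {s : Finset GolayPt} (hs : s ∈ CW) : P s := by
  refine CW_octad_induction h.empty h.sd (fun o' ho' => ?_) hs
  obtain ⟨g, hg, e⟩ := octad_trans ho ho'
  rw [← e]; exact h.smul g hg o hP

theorem compl_mem_octads {c : Finset GolayPt} (hc : c ∈ CW) (h16 : c.card = 16) : Finset.univ \ c ∈ octads :=
  ⟨compl_mem_CW hc, by rw [Finset.card_univ_diff, card_golayPt, h16]⟩

theorem InvFam.of_code {P : Finset GolayPt → Prop} (h : InvFam P) {c : Finset GolayPt} (hc : c ∈ CW)
    (h0 : c ≠ ∅) (h1 : c ≠ Finset.univ) (hP : P c) {s : Finset GolayPt} (hs : s ∈ CW) : P s := by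
  rcases card_CW hc with h2 | h2 | h2 | h2 | h2
  · exact absurd (Finset.card_eq_zero.1 h2) h0
  · exact h.of_octad ⟨hc, h2⟩ hP hs
  · have hd : ∀ d ∈ dodecads, P d := fun d hd => by
      obtain ⟨g, hg, e⟩ := dodecad_trans ⟨hc, h2⟩ hd
      rw [← e]; exact h.smul g hg c hP
    have h3 := h.sd _ _ (hd _ D0_mem) (hd (fs (Nat.xor D0 0x293e)) (fs_mem_dodecads (by decide +kernel)))
    rw [← fs_xor] at h3
    exact h.of_octad (fs_mem_octads (by decide +kernel)) h3 hs
  · have hd : ∀ o ∈ octads, P (Finset.univ \ o) := fun o ho => by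
      obtain ⟨g, hg, e⟩ := octad_trans (compl_mem_octads hc h2) ho
      have := h.smul g hg c hP
      rwa [← e, smul_sdiff, smul_univ, sdiff_sdiff_right_self, Finset.inf_eq_inter, Finset.univ_inter]
    have h3 := h.sd _ _ (hd _ O0_mem) (hd (fs 0x149f) (fs_mem_octads (by decide +kernel)))
    rw [← fs_compl, ← fs_compl, ← fs_xor] at h3
    exact h.of_octad (fs_mem_octads (by decide +kernel)) h3 hs
  · exact absurd (Finset.eq_univ_of_card c (by rw [h2, card_golayPt])) h1

theorem exists_notMem {s : Finset GolayPt} (hs : s.card < 24) : ∃ p, p ∉ s := by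
  by_contra h
  push Not at h
  rw [Finset.eq_univ_of_forall h, Finset.card_univ, card_golayPt] at hs
  exact lt_irrefl _ hs

theorem exists_move_duad {u : Finset GolayPt} (hu : u.card ≤ 5) (h0 : u ≠ ∅) :
    ∃ g ∈ M24, ∃ a b, a ≠ b ∧ symmDiff u (g • u) = {a, b} := by
  obtain ⟨a, ha⟩ := Finset.nonempty_iff_ne_empty.2 h0
  obtain ⟨b, hb⟩ := exists_notMem (s := u) (by omega)
  obtain ⟨g, hg, h1, h2⟩ := exists_fix_move (s := u.erase a) (by rw [Finset.card_erase_of_mem ha]; omega)
    (a := a) (b := b) (Finset.notMem_erase _ _) (fun h => hb (Finset.mem_of_mem_erase h))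
  have hab : a ≠ b := fun e => hb (e ▸ ha)
  refine ⟨g, hg, a, b, hab, ?_⟩
  have h3 : g • u = insert b (u.erase a) := by
    conv_lhs => rw [← Finset.insert_erase ha]
    rw [Finset.smul_finset_insert, smul_eq_of_fix h1]
    congr 1
  rw [h3]
  ext p
  simp only [Finset.mem_symmDiff, Finset.mem_insert, Finset.mem_erase, Finset.mem_singleton]
  by_cases e1 : p = a
  · subst e1; simp [ha, hab]
  · by_cases e2 : p = b
    · subst e2; simp [hb]
    · simp [e1, e2]

theorem InvFam.of_duad {P : Finset GolayPt → Prop} (h : InvFam P) {a b : GolayPt} (hab : a ≠ b) (hP : P {a, b})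
    {s : Finset GolayPt} (hs : Even s.card) : P s := by
  have hd : ∀ t : Finset GolayPt, t.card = 2 → P t := fun t ht => by
    obtain ⟨g, hg, e⟩ := exists_smul_eq (s := {a, b}) (t := t) (by rw [Finset.card_pair hab]; norm_num)
      (by rw [Finset.card_pair hab, ht])
    rw [← e]; exact h.smul g hg _ hP
  induction hn : s.card using Nat.strong_induction_on generalizing s with
  | _ n ih =>
    by_cases h0 : n = 0
    · rw [Finset.card_eq_zero.1 (hn.trans h0)]; exact h.empty
    · rw [Nat.even_iff] at hs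
      obtain ⟨t, ht, hc⟩ := Finset.exists_subset_card_eq (s := s) (n := 2) (by omega)
      have h3 := card_symmDiff_add s t
      rw [Finset.inter_eq_right.2 ht, hc] at h3
      have := h.sd _ _ (ih _ (by omega) (s := symmDiff s t) (by rw [Nat.even_iff]; omega) rfl) (hd t hc)
      rwa [symmDiff_symmDiff_cancel_right] at this

theorem InvFam.of_not_code {P : Finset GolayPt → Prop} (h : InvFam P) {w : Finset GolayPt} (hw : w ∉ CW)
    (hP : P w) {s : Finset GolayPt} (hs : Even s.card) : P s := by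
  obtain ⟨u, hu, hc⟩ := exists_small_rep w
  have hu0 : u ≠ ∅ := by
    rintro rfl
    rw [← Finset.bot_eq_empty, symmDiff_bot] at hc; exact hw hc
  set c := symmDiff w u with hcdef
  have hw' : w = symmDiff c u := by rw [hcdef, symmDiff_symmDiff_cancel_right]
  obtain ⟨g, hg, a, b, hab, e⟩ := exists_move_duad (u := u) (by omega) hu0
  have key : g • c = c ∨ P u → P s := by
    rintro (h1 | h1)
    · refine h.of_duad hab ?_ hs
      have := h.sd _ _ hP (h.smul g hg _ hP)
      rwa [hw', smul_symmDiff, h1, symmDiff_symmDiff_symmDiff_comm, symmDiff_self, bot_symmDiff, e] at this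
    · refine h.of_duad hab ?_ hs
      rw [← e]; exact h.sd _ _ h1 (h.smul g hg _ h1)
  by_cases h0 : c = ∅
  · exact key (Or.inl (by rw [h0, Finset.smul_finset_empty]))
  by_cases h1 : c = Finset.univ
  · exact key (Or.inl (by rw [h1, smul_univ]))
  apply key; right
  have h2 := card_CW hc
  have h3 : c.card ≠ 0 := fun e => h0 (Finset.card_eq_zero.1 e)
  have h4 : c.card ≠ 24 := fun e => h1 (Finset.eq_univ_of_card c (by rw [e, card_golayPt]))
  obtain ⟨p, hp, hpu⟩ : ∃ p ∈ c, p ∉ u := by
    by_contra hcon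
    push Not at hcon
    have := Finset.card_le_card (show c ⊆ u from hcon)
    omega
  obtain ⟨q, hq⟩ := exists_notMem (s := c ∪ u) (by have := Finset.card_union_le c u; omega)
  rw [Finset.mem_union, not_or] at hq
  obtain ⟨k, hk, k1, k2⟩ := exists_fix_move hu hpu hq.2
  have h5 := h.sd _ _ hP (h.smul k hk _ hP)
  rw [hw', smul_symmDiff, smul_eq_of_fix k1, symmDiff_symmDiff_symmDiff_comm, symmDiff_self, symmDiff_bot] at h5
  have h6 : P c := by
    refine h.of_code (symmDiff_mem_CW hc (smul_mem_CW hk hc)) ?_ ?_ h5 hc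
    · apply Finset.ne_empty_of_mem (a := q)
      rw [Finset.mem_symmDiff]
      exact Or.inr ⟨k2 ▸ apply_mem_smul.2 hp, hq.1⟩
    · obtain ⟨r, hr⟩ := Finset.nonempty_iff_ne_empty.2 hu0
      intro e
      have h7 : r ∈ symmDiff c (k • c) := e ▸ Finset.mem_univ r
      have h8 : r ∈ k • c ↔ r ∈ c := by conv_lhs => rw [← k1 r hr, apply_mem_smul]
      rw [Finset.mem_symmDiff, h8] at h7
      tauto
  have := h.sd _ _ h6 hP
  rwa [hw', symmDiff_symmDiff_cancel_left] at this

theorem InvFam.of_odd {P : Finset GolayPt → Prop} (h : InvFam P) {w : Finset GolayPt} (hw : ¬ Even w.card)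
    (hP : P w) (s : Finset GolayPt) : P s := by
  have hw' : w ∉ CW := fun hc => hw (by have := even_card_inter hc hc; rwa [Finset.inter_self] at this)
  by_cases hs : Even s.card
  · exact h.of_not_code hw' hP hs
  · have h1 := card_symmDiff_add s w
    have := h.sd _ _ (h.of_not_code hw' hP (s := symmDiff s w) (by rw [Nat.even_iff] at *; omega)) hP
    rwa [symmDiff_symmDiff_cancel_right] at this

theorem invFam_of_submodule {W : Submodule (ZMod 2) (GolayPt → ZMod 2)}
    (hW : ∀ σ ∈ M24, ∀ w ∈ W, (fun p => w (σ.symm p)) ∈ W) : InvFam fun s => ind s ∈ W where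
  empty := by rw [ind_empty]; exact zero_mem _
  sd s t hs ht := by rw [ind_symmDiff]; exact add_mem hs ht
  smul g hg s hs := by rw [ind_smul]; exact hW g hg _ hs

theorem eq_span_one {W : Submodule (ZMod 2) (GolayPt → ZMod 2)} (h1 : (fun _ => (1 : ZMod 2)) ∈ W)
    (h : ∀ s, ind s ∈ W → s = ∅ ∨ s = Finset.univ) : W = Submodule.span (ZMod 2) {fun _ => (1 : ZMod 2)} := by
  apply le_antisymm
  · intro w hw
    rw [← ind_support w] at hw ⊢
    rcases h _ hw with e | e
    · rw [e, ind_empty]; exact zero_mem _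
    · rw [e, ind_univ]; exact Submodule.subset_span rfl
  · rw [Submodule.span_le]; rintro _ rfl; exact h1

/-- every set is congruent modulo the code to a set avoiding the information positions -/
theorem exists_high_rep (s : Finset GolayPt) : ∃ j < 4096, symmDiff s (fs (Nat.mul j 4096)) ∈ CW := by
  have hi := land4095_lt (mask s)
  set e := enc (Nat.land (mask s) 4095) with he
  have h1 : Nat.land (Nat.xor (mask s) e) 4095 = 0 := by
    have : Nat.land (Nat.xor (mask s) e) 4095 = Nat.land (mask s) 4095 ^^^ Nat.land e 4095 :=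
      Nat.and_xor_distrib_right
    rw [this, he, enc_land hi, Nat.xor_self]
  have h2 : Nat.xor (mask s) e < 2 ^ 24 := xor_lt (mask_lt s) (enc_lt hi)
  have h3 : Nat.xor (mask s) e % 4096 = 0 := by
    rw [← h1]; exact (Nat.and_two_pow_sub_one_eq_mod _ 12).symm
  have h5 : Nat.mul (Nat.xor (mask s) e / 4096) 4096 = Nat.xor (mask s) e := by
    show _ * 4096 = _; omega
  refine ⟨Nat.xor (mask s) e / 4096, by omega, ?_⟩
  rw [h5, fs_xor, fs_mask, symmDiff_symmDiff_cancel_left]
  exact enc_mem_CW hi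

/-- two permutations moving every non-zero class modulo the code -/
def movesAll (a b : ℕ) : Bool :=
  allLt (fun j => Nat.beq j 0 || force (Nat.mul j 4096) fun m =>
    !(isCode (Nat.xor (apM a m) m)) || !(isCode (Nat.xor (apM b m) m))) 4096

theorem movesAll_sound {a b : Equiv.Perm GolayPt} (ha : a ∈ M24) (hb : b ∈ M24)
    (h : movesAll (code a) (code b) = true) {s : Finset GolayPt} (hs : s ∉ CW) :
    symmDiff (a • s) s ∉ CW ∨ symmDiff (b • s) s ∉ CW := by
  obtain ⟨j, hj, hc⟩ := exists_high_rep s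
  have hm : Nat.mul j 4096 < 2 ^ 24 := by show j * 4096 < _; omega
  have key : ∀ g ∈ M24, symmDiff (g • s) s ∈ CW → isCode (Nat.xor (apM (code g) (Nat.mul j 4096)) (Nat.mul j 4096))
      = true := by
    intro g hg h1
    rw [← fs_mem_CW_iff (xor_lt (apM_lt g hm) hm), fs_xor, ← smul_fs g hm]
    have := symmDiff_mem_CW h1 (symmDiff_mem_CW (smul_mem_CW hg hc) hc)
    rw [smul_symmDiff, symmDiff_symmDiff_symmDiff_comm (g • s) _ s, symmDiff_symmDiff_cancel_left] at this
    exact this
  have h1 := allLt_iff.1 h j hj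
  simp only [force_eq, Bool.or_eq_true, beq_iff, Bool.not_eq_true'] at h1
  rcases h1 with h1 | h1 | h1
  · subst h1
    rw [show Nat.mul 0 4096 = 0 from rfl, fs_zero, ← Finset.bot_eq_empty, symmDiff_bot] at hc
    exact absurd hc hs
  · left; intro h2; rw [key a ha h2] at h1; exact absurd h1 (by decide)
  · right; intro h2; rw [key b hb h2] at h1; exact absurd h1 (by decide)

theorem exists_move_of_base {m a b : ℕ} (hm : m < 2 ^ 24)
    (h : (inM24 a && inM24 b && Nat.beq (apM a m) m && Nat.beq (apM b m) m && movesAll a b) = true)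
    {u : Finset GolayPt} {g : Equiv.Perm GolayPt} (hg : g ∈ M24) (e : g • u = fs m) {s : Finset GolayPt}
    (hs : s ∉ CW) : ∃ σ ∈ M24, σ • u = u ∧ symmDiff (σ • s) s ∉ CW := by
  simp only [Bool.and_eq_true, beq_iff] at h
  obtain ⟨⟨⟨⟨h1, h2⟩, h3⟩, h4⟩, h5⟩ := h
  have key : ∀ c, inM24 c = true → apM c m = m → symmDiff (perm c • g • s) (g • s) ∉ CW →
      ∃ σ ∈ M24, σ • u = u ∧ symmDiff (σ • s) s ∉ CW := by
    intro c c1 c2 c3
    refine ⟨g⁻¹ * perm c * g, mul_mem (mul_mem (inv_mem hg) (perm_mem_M24 c1)) hg, ?_, ?_⟩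
    · rw [mul_smul, mul_smul, e, (smul_fs_eq_iff _ hm hm).2 (by rw [code_perm' c1, c2]), ← e, inv_smul_smul]
    · rw [← smul_mem_CW_iff hg, smul_symmDiff, mul_smul, mul_smul, smul_inv_smul]; exact c3
  rcases movesAll_sound (perm_mem_M24 h1) (perm_mem_M24 h2) (by rw [code_perm' h1, code_perm' h2, h5])
    (s := g • s) (by rwa [smul_mem_CW_iff hg]) with h6 | h6
  · exact key a h1 h3 h6
  · exact key b h2 h4 h6

theorem exists_move_of_octad {u : Finset GolayPt} (hu : u ∈ octads) {s : Finset GolayPt}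
    (hs : s ∉ CW) : ∃ σ ∈ M24, σ • u = u ∧ symmDiff (σ • s) s ∉ CW := by
  obtain ⟨g, hg, e⟩ := octad_trans hu O0_mem
  exact exists_move_of_base (a := 0x2aa7492e298088c33da7aa1d600ee1) (b := 0xbd27682c28315ea61c896d45288c0e)
    O0_lt (by decide +kernel) hg e hs

theorem exists_move_of_CW {u : Finset GolayPt} (hu : u ∈ CW) {s : Finset GolayPt}
    (hs : s ∉ CW) : ∃ σ ∈ M24, σ • u = u ∧ symmDiff (σ • s) s ∉ CW := by
  rcases card_CW hu with h2 | h2 | h2 | h2 | h2
  · obtain ⟨σ, h1, -, h3⟩ := exists_move_of_octad O0_mem hs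
    exact ⟨σ, h1, by rw [Finset.card_eq_zero.1 h2, Finset.smul_finset_empty], h3⟩
  · exact exists_move_of_octad ⟨hu, h2⟩ hs
  · obtain ⟨g, hg, e⟩ := dodecad_trans0 ⟨hu, h2⟩
    exact exists_move_of_base (a := 0x4b56a2d6330dc86b486778290609c8) (b := 0xb96362516a1a26e6d5e749a5013001)
      D0_lt (by decide +kernel) hg e hs
  · obtain ⟨σ, h1, h4, h3⟩ := exists_move_of_octad (compl_mem_octads hu h2) hs
    refine ⟨σ, h1, ?_, h3⟩
    have h5 : u = Finset.univ \ (Finset.univ \ u) := by simp
    rw [h5, smul_sdiff σ Finset.univ, smul_univ, h4]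
  · obtain ⟨σ, h1, -, h3⟩ := exists_move_of_octad O0_mem hs
    exact ⟨σ, h1, by rw [Finset.eq_univ_of_card u (by rw [h2, card_golayPt]), smul_univ], h3⟩

end CA.Gol
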