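import Cfsg.Agent.Lib.Golay.Leech

/-!
The Leech lattice modulo two is irreducible; automorphisms are determined by their action on short vectors.
-/

set_option autoImplicit false

namespace CA.Gol
open Cfsg
open scoped Pointwise

/-- an invariant subgroup between twice the lattice and the lattice -/
structure InvM (M : AddSubgroup ZV) : Prop where
  two : ∀ v ∈ leechLattice, (2 : ℤ) • v ∈ M
  le : M ≤ leechLattice
  inv : ∀ f, IsCo f → ∀ x ∈ M, f x ∈ M

theorem invM_of {M : AddSubgroup ZV} (h2 : ∀ v ∈ leechLattice, (2 : ℤ) • v ∈ M) (hle : M ≤ leechLattice)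
    (h : ∀ g : Co0, ∀ v : leechLattice, (v : ZV) ∈ M → ((g • v : leechLattice) : ZV) ∈ M) : InvM M :=
  ⟨h2, hle, fun f ⟨e, he⟩ x hx => by rw [← he ⟨x, hle hx⟩]; exact h e _ hx⟩

theorem sum_parity (y : ZV) (s : Finset GolayPt) (h : ∀ p, 2 ∣ y p - iz s p) : 2 ∣ ∑ p, y p - s.card := by
  rw [← sum_iz, ← Finset.sum_sub_distrib]
  exact Finset.dvd_sum fun p _ => h p

theorem pair_of_tetrads {H : AddSubgroup ZV} (h8 : ∀ y : ZV, (8 : ℤ) • y ∈ H)
    (h4 : ∀ t : Finset GolayPt, t.card = 4 → (4 : ℤ) • iz t ∈ H) {a b : GolayPt} (hab : a ≠ b) :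
    (4 : ℤ) • iz {a, b} ∈ H := by
  obtain ⟨s, hs, hc⟩ := Finset.exists_subset_card_eq (s := Finset.univ \ {a, b}) (n := 3)
    (by rw [Finset.card_univ_sdiff, card_golayPt, Finset.card_pair hab]; norm_num)
  have ha : a ∉ s := fun h => by simpa using hs h
  have hb : b ∉ s := fun h => by simpa using hs h
  convert sub_mem (add_mem (h4 (insert a s) (by rw [Finset.card_insert_of_notMem ha, hc]))
    (h4 (insert b s) (by rw [Finset.card_insert_of_notMem hb, hc]))) (h8 (iz s)) using 1
  funext p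
  simp only [Pi.smul_apply, Pi.sub_apply, Pi.add_apply, smul_eq_mul, iz, Finset.mem_insert, Finset.mem_singleton]
  by_cases h1 : p = a
  · subst h1; simp [ha, hab]
  · by_cases h2 : p = b
    · subst h2; simp [hb, h1]
    · by_cases h3 : p ∈ s <;> simp [h1, h2, h3]

namespace InvM
variable {M : AddSubgroup ZV} (h : InvM M)
include h

theorem eight_even {y : ZV} (hy : 2 ∣ ∑ p, y p) : (8 : ℤ) • y ∈ M := by
  have := h.two _ (four_mem hy)
  rwa [smul_smul] at this

theorem eight_all {z : ZV} (hz : ¬ 2 ∣ ∑ p, z p) (hM : (8 : ℤ) • z ∈ M) (y : ZV) : (8 : ℤ) • y ∈ M := by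
  by_cases hy : 2 ∣ ∑ p, y p
  · exact h.eight_even hy
  · have := add_mem (h.eight_even (y := y - z) (by simp only [Pi.sub_apply, Finset.sum_sub_distrib]; omega)) hM
    rwa [smul_sub, sub_add_cancel] at this

theorem smul_iz {k : ℤ} {s : Finset GolayPt} (hs : k • iz s ∈ M) {g : Equiv.Perm GolayPt} (hg : g ∈ M24) :
    k • iz (g • s) ∈ M := by
  rw [← pm_iz, ← pm_smul]; exact h.inv _ (isCo_pm hg) _ hs

theorem eq_top (h8 : ∀ y : ZV, (8 : ℤ) • y ∈ M) : M = leechLattice := by
  have h1 : (4 : ℤ) • iz (fs 15) ∈ M := by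
    convert add_mem (h.inv _ isCo_xi _ (h8 (iz {pt 0}))) (h8 (iz {pt 0})) using 1
    decide +kernel
  have h2 : ∀ t : Finset GolayPt, t.card = 4 → (4 : ℤ) • iz t ∈ M := fun t ht => by
    obtain ⟨g, hg, e⟩ := exists_smul_eq (s := fs 15) (t := t) (by rw [card_fs]; decide +kernel)
      (by rw [ht, card_fs]; decide +kernel)
    rw [← e]; exact h.smul_iz h1 hg
  have h4 : ∀ a b, a ≠ b → (4 : ℤ) • iz {a, b} ∈ M := fun a b hab => pair_of_tetrads h8 h2 hab
  have h5 : (2 : ℤ) • iz (fs 0x149f) ∈ M := by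
    convert add_mem (h.inv _ isCo_xi _ (h4 (pt 0) (pt 4) (by decide)))
      (h2 (fs 0x1481) (by rw [card_fs]; decide +kernel)) using 1
    decide +kernel
  have h6 : ∀ o ∈ octads, (2 : ℤ) • iz o ∈ M := fun o ho => by
    obtain ⟨g, hg, e⟩ := octad_trans (fs_mem_octads (m := 0x149f) (by decide +kernel)) ho
    rw [← e]; exact h.smul_iz h5 hg
  have h7 := h.inv _ isCo_xi _ (h6 _ (fs_mem_octads (m := 0x293e) (by decide +kernel)))
  exact le_antisymm h.le (leech_le_of h4 (fun j hj => h6 _ (bas_mem_octads hj)) (h.le h7) h7 (by decide +kernel))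

theorem of_four {y : ZV} (hy : (4 : ℤ) • y ∈ M) {s : Finset GolayPt} (hs : ∀ p, 2 ∣ y p - iz s p) (hc : s ∉ CW) :
    M = leechLattice := by
  obtain ⟨d, hd, hodd⟩ : ∃ d ∈ CW, ¬ Even (s ∩ d).card := by
    by_contra hcon
    push Not at hcon
    exact hc (mem_CW_of_even hcon)
  have h1 := sub_mem hy (h.inv _ (isCo_sg hd) _ hy)
  refine h.eq_top (h.eight_all (z := fun p => iz d p * y p) ?_ ?_)
  · have := sum_parity (fun p => iz d p * y p) (s ∩ d) fun p => by
      rw [← iz_mul, mul_comm (iz s p), ← mul_sub]; exact Dvd.dvd.mul_left (hs p) _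
    rw [Nat.not_even_iff] at hodd
    omega
  · convert h1 using 1
    funext p
    simp only [Pi.smul_apply, Pi.sub_apply, sg_eq, smul_eq_mul]; ring

theorem of_two {x y : ZV} (hx : x ∈ M) {c : Finset GolayPt} (e : ∀ p, x p = 2 * iz c p + 4 * y p)
    {p q : GolayPt} (hp : p ∈ c) (hq : q ∉ c) : M = leechLattice := by
  obtain ⟨d, hd, hs⟩ := exists_octad_superset (s := {p, q}) (le_trans Finset.card_le_two (by norm_num))
  have h1 := sub_mem hx (h.inv _ (isCo_sg hd.1) _ hx)
  refine h.of_four (y := fun r => iz d r * (iz c r + 2 * y r)) (s := d ∩ c) ?_ (fun r => ?_) fun hc => ?_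
  · convert h1 using 1
    funext r
    simp only [Pi.smul_apply, Pi.sub_apply, sg_eq, smul_eq_mul, e]; ring
  · rw [← iz_mul]; exact ⟨iz d r * y r, by ring⟩
  · have h2 := card_CW hc
    have h3 : 0 < (d ∩ c).card := Finset.card_pos.2 ⟨p, Finset.mem_inter.2 ⟨hs (by simp), hp⟩⟩
    have h4 : (d ∩ c).card < d.card := Finset.card_lt_card
      ⟨Finset.inter_subset_left, fun h => hq (Finset.mem_inter.1 (h (hs (by simp)))).2⟩
    rw [hd.2] at h4
    omega

theorem of_four' {y : ZV} (hy : (4 : ℤ) • y ∈ M) (hn : ¬ ∃ w ∈ leechLattice, (4 : ℤ) • y = (2 : ℤ) • w) :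
    M = leechLattice := by
  set s := Finset.univ.filter fun p => y p % 2 = 1 with hsd
  have hs : ∀ p, y p = iz s p + 2 * (y p / 2) := fun p => by
    rcases iz_cases s p with h | h <;> rw [h.2] <;> simp only [hsd, Finset.mem_filter, Finset.mem_univ, true_and] at h <;>
      omega
  by_cases hc : s ∈ CW
  · refine h.eq_top (h.eight_all (z := fun p => y p / 2) (fun hz => hn ⟨_, add_mem (two_iz_mem hc) (four_mem hz), ?_⟩) ?_)
    · funext p
      have := hs p
      simp only [Pi.smul_apply, Pi.add_apply, smul_eq_mul]; omega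
    · convert sub_mem hy (h.two _ (two_iz_mem hc)) using 1
      funext p
      have := hs p
      simp only [Pi.smul_apply, Pi.sub_apply, smul_eq_mul]; omega
  · exact h.of_four hy (fun p => by have := hs p; omega) hc

theorem irred {x : ZV} (hx : x ∈ M) (hn : ¬ ∃ w ∈ leechLattice, x = (2 : ℤ) • w) : M = leechLattice := by
  by_cases he : 2 ∣ x (pt 0)
  · obtain ⟨c, hc, y, e, hy⟩ := even_form (h.le hx) he
    by_cases h0 : c = ∅
    · have e1 : x = (4 : ℤ) • y := funext fun p => by rw [e p, h0]; simp [iz]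
      rw [e1] at hx hn
      exact h.of_four' hx hn
    by_cases h1 : c = Finset.univ
    · have e1 : x - (2 : ℤ) • v0 = (4 : ℤ) • (y + (2 : ℤ) • iz {pt 0}) := funext fun p => by
        simp only [Pi.smul_apply, Pi.sub_apply, Pi.add_apply, smul_eq_mul, e p, v0_eq, h1,
          show iz Finset.univ p = 1 by simp [iz]]
        ring
      refine h.of_four' (e1 ▸ sub_mem hx (h.two _ v0_mem)) ?_
      rintro ⟨w, hw, e2⟩
      exact hn ⟨w + v0, add_mem hw v0_mem, by rw [smul_add, ← e2, ← e1, sub_add_cancel]⟩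
    · obtain ⟨p, hp⟩ := Finset.nonempty_iff_ne_empty.2 h0
      obtain ⟨q, hq⟩ : ∃ q, q ∉ c := by
        by_contra hcon
        push Not at hcon
        exact h1 (Finset.eq_univ_of_forall hcon)
      exact h.of_two hx e hp hq
  · refine h.of_two (sub_mem hx (h.inv _ (isCo_sg O0_mem.1) _ hx)) (c := fs O0)
      (y := fun p => iz (fs O0) p * (x p / 2)) (p := pt 0) (q := pt 4) (fun p => ?_) (by decide +kernel)
      (by decide +kernel)
    have := same_parity (h.le hx) p (pt 0)
    rw [Pi.sub_apply, sg_eq]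
    rcases iz_cases (fs O0) p with h | h <;> rw [h.2] <;> omega

end InvM

/-- a subgroup of the lattice containing the standard short vectors is everything -/
theorem eq_top_of_short {H : AddSubgroup leechLattice}
    (h : ∀ v : leechLattice, sqNorm (v : ZV) = 32 → dotInt (v : ZV) v0 ≠ 0 → v ∈ H) (v : leechLattice) : v ∈ H := by
  have key : ∀ x ∈ leechLattice, sqNorm x = 32 → dotInt x v0 ≠ 0 → x ∈ H.map leechLattice.subtype :=
    fun x hx h1 h2 => ⟨⟨x, hx⟩, h _ h1 h2, rfl⟩
  have hn : ∀ (k : ℤ) s, sqNorm (k • iz s) = k ^ 2 * s.card := fun k s => by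
    rw [sqNorm_smul, sqNorm, ← sum_iz]
    congr 1
    exact Finset.sum_congr rfl fun p _ => by rcases iz_cases s p with h | h <;> rw [h.2] <;> rfl
  have hd : ∀ (k : ℤ) s, dotInt (k • iz s) v0 = k * (s.card - 4 * iz s (pt 0)) := fun k s => by
    rw [dot_comm, dot_smul, dot_iz]
    congr 1
    simp only [v0_eq, Finset.sum_sub_distrib, ← Finset.mul_sum]
    by_cases h : pt 0 ∈ s <;> simp [iz, h]
  obtain ⟨w, hw, e⟩ := leech_le_of (H := H.map leechLattice.subtype) (fun a b hab => key _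
      (four_mem (by rw [sum_iz, Finset.card_pair hab]; norm_num)) (by rw [hn, Finset.card_pair hab]; norm_num)
      (by rw [hd, Finset.card_pair hab]; rcases iz_cases {a, b} (pt 0) with h | h <;> rw [h.2] <;> norm_num))
    (fun j hj => key _ (two_iz_mem (bas_mem_CW hj)) (by rw [hn, (bas_mem_octads hj).2]; norm_num)
      (by rw [hd, (bas_mem_octads hj).2]
          rcases iz_cases (fs (fld 24 basT j)) (pt 0) with h | h <;> rw [h.2] <;> norm_num))
    v0_mem (key _ v0_mem (by decide +kernel) (by decide +kernel)) (by decide) v.2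
  rwa [← show w = v from Subtype.ext e]

end CA.Gol
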