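import Mathlib
import Cfsg.Prelude.Def_Sporadic_a

/-!
Abstract binary codes of length 24, dimension 12 and minimum weight 8.
-/

set_option autoImplicit false

namespace CA.Gol.Abs
open Cfsg

section
variable {α : Type*} [Fintype α] [DecidableEq α]

/-- indicator word -/
def indG (s : Finset α) : α → ZMod 2 := fun p => if p ∈ s then 1 else 0

theorem z2 (x : ZMod 2) : x = 0 ∨ x = 1 := by revert x; decide

omit [DecidableEq α] in
theorem mem_sup {w : α → ZMod 2} {p : α} : p ∈ support₂ w ↔ w p = 1 := by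
  simp only [support₂, Finset.mem_filter, Finset.mem_univ, true_and]
  rcases z2 (w p) with h | h <;> simp [h]

theorem sup_indG (s : Finset α) : support₂ (indG s) = s := by
  ext p; simp [support₂, indG]

theorem indG_sup (w : α → ZMod 2) : indG (support₂ w) = w := by
  funext p
  rw [indG]
  rcases z2 (w p) with h | h <;> simp [mem_sup, h]

omit [DecidableEq α] in
theorem norm_eq (w : α → ZMod 2) : hammingNorm w = (support₂ w).card := rfl

theorem sup_add (u v : α → ZMod 2) : support₂ (u + v) = symmDiff (support₂ u) (support₂ v) := by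
  ext p
  simp only [mem_sup, Finset.mem_symmDiff, Pi.add_apply]
  rcases z2 (u p) with h | h <;> rcases z2 (v p) with h' | h' <;> simp [h, h']

omit [Fintype α] [DecidableEq α] in
theorem sub_eq (u v : α → ZMod 2) : u - v = u + v := by
  rw [sub_eq_add_neg, show -v = v from funext fun p => ZMod.neg_eq_self_mod_two (v p)]

omit [Fintype α] in
theorem card_sd (s t : Finset α) : (symmDiff s t).card + 2 * (s ∩ t).card = s.card + t.card := by
  have h1 : symmDiff s t = (s \ t) ∪ (t \ s) := rfl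
  rw [h1, Finset.card_union_of_disjoint disjoint_sdiff_sdiff]
  have h2 := Finset.card_sdiff_add_card_inter s t
  have h3 := Finset.card_sdiff_add_card_inter t s
  rw [Finset.inter_comm t s] at h3
  omega

theorem norm_add (u v : α → ZMod 2) :
    hammingNorm (u + v) + 2 * (support₂ u ∩ support₂ v).card = hammingNorm u + hammingNorm v := by
  rw [norm_eq, sup_add]; exact card_sd _ _

theorem dot_eq (u v : α → ZMod 2) : ∑ i, u i * v i = ((support₂ u ∩ support₂ v).card : ZMod 2) := by
  have : ∀ i, u i * v i = if i ∈ support₂ u ∩ support₂ v then 1 else 0 := by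
    intro i
    simp only [Finset.mem_inter, mem_sup]
    rcases z2 (u i) with h | h <;> rcases z2 (v i) with h' | h' <;> simp [h, h']
  simp only [this]
  rw [Finset.sum_ite_mem, Finset.univ_inter, Finset.sum_const, nsmul_eq_mul, mul_one]

/-- words and subsets -/
def supEquiv : (α → ZMod 2) ≃ Finset α := ⟨support₂, indG, indG_sup, sup_indG⟩

end

/-- the weight given to a small word -/
def wf (k : ℕ) : ℕ := if k ≤ 3 then 6 else if k = 4 then 1 else 0

theorem sum_wf : ∑ u : Fin 24 → ZMod 2, wf (hammingNorm u) = 24576 := by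
  rw [Fintype.sum_equiv supEquiv (fun u => wf (hammingNorm u)) (fun s => wf s.card) fun _ => rfl,
    ← Finset.powerset_univ, Finset.sum_powerset_apply_card]
  decide +kernel

variable {C : Submodule (ZMod 2) (Fin 24 → ZMod 2)}

theorem two_small (hmin : ∀ w ∈ C, w ≠ 0 → 8 ≤ hammingNorm w) {w u u' : Fin 24 → ZMod 2} (hu : u - w ∈ C)
    (hu' : u' - w ∈ C) (h4 : hammingNorm u ≤ 4) (h4' : hammingNorm u' ≤ 4) (hne : u ≠ u') :
    hammingNorm u = 4 ∧ Disjoint (support₂ u) (support₂ u') := by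
  have h1 := hmin _ (sub_mem hu hu') (by rw [sub_sub_sub_cancel_right]; exact sub_ne_zero.2 hne)
  rw [sub_sub_sub_cancel_right, sub_eq] at h1
  have h2 := norm_add u u'
  exact ⟨by omega, by rw [Finset.disjoint_iff_inter_eq_empty, ← Finset.card_eq_zero]; omega⟩

open Classical in
/-- the small words in a coset -/
noncomputable def small (C : Submodule (ZMod 2) (Fin 24 → ZMod 2)) (w : Fin 24 → ZMod 2) :
    Finset (Fin 24 → ZMod 2) := Finset.univ.filter fun u => u - w ∈ C ∧ hammingNorm u ≤ 4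

theorem mem_small {w u : Fin 24 → ZMod 2} : u ∈ small C w ↔ u - w ∈ C ∧ hammingNorm u ≤ 4 := by simp [small]

theorem small_eq_singleton (hmin : ∀ w ∈ C, w ≠ 0 → 8 ≤ hammingNorm w) {w u : Fin 24 → ZMod 2}
    (hu : u ∈ small C w) (h3 : hammingNorm u ≤ 3) : small C w = {u} := by
  rw [Finset.eq_singleton_iff_unique_mem]
  refine ⟨hu, fun u' hu' => ?_⟩
  by_contra hne
  rw [mem_small] at hu hu'
  have := (two_small hmin hu.1 hu'.1 hu.2 hu'.2 (Ne.symm hne)).1
  omega

theorem card_small_le (hmin : ∀ w ∈ C, w ≠ 0 → 8 ≤ hammingNorm w) {w : Fin 24 → ZMod 2}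
    (h : ∀ u ∈ small C w, hammingNorm u = 4) : (small C w).card ≤ 6 := by
  have h1 : ((small C w).biUnion support₂).card = ∑ u ∈ small C w, (support₂ u).card := by
    apply Finset.card_biUnion
    intro u hu u' hu' hne
    rw [Finset.mem_coe, mem_small] at hu hu'
    exact (two_small hmin hu.1 hu'.1 hu.2 hu'.2 hne).2
  rw [Finset.sum_congr rfl (f := fun u => (support₂ u).card) (g := fun _ => 4) h, Finset.sum_const, smul_eq_mul] at h1
  have h2 := Finset.card_le_univ ((small C w).biUnion support₂)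
  rw [Fintype.card_fin] at h2
  omega

theorem sum_small_cases (hmin : ∀ w ∈ C, w ≠ 0 → 8 ≤ hammingNorm w) (w : Fin 24 → ZMod 2) :
    (∃ u, small C w = {u} ∧ hammingNorm u ≤ 3 ∧ ∑ u ∈ small C w, wf (hammingNorm u) = 6) ∨
      ((∀ u ∈ small C w, hammingNorm u = 4) ∧ ∑ u ∈ small C w, wf (hammingNorm u) = (small C w).card) := by
  by_cases h : ∃ u ∈ small C w, hammingNorm u ≤ 3
  · obtain ⟨u, hu, h3⟩ := h
    refine Or.inl ⟨u, small_eq_singleton hmin hu h3, h3, ?_⟩
    rw [small_eq_singleton hmin hu h3, Finset.sum_singleton, wf, if_pos h3]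
  · push Not at h
    have h4 : ∀ u ∈ small C w, hammingNorm u = 4 := fun u hu => by
      have := h u hu
      have := (mem_small.1 hu).2
      omega
    refine Or.inr ⟨h4, ?_⟩
    rw [Finset.sum_congr rfl (g := fun _ => 1) fun u hu => by rw [h4 u hu]; rfl]
    simp

theorem sum_small (hdim : Module.finrank (ZMod 2) C = 12) (hmin : ∀ w ∈ C, w ≠ 0 → 8 ≤ hammingNorm w)
    (w : Fin 24 → ZMod 2) : ∑ u ∈ small C w, wf (hammingNorm u) = 6 := by
  classical
  let _ : Fintype ((Fin 24 → ZMod 2) ⧸ C) := Fintype.ofFinite _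
  have hq : Fintype.card ((Fin 24 → ZMod 2) ⧸ C) = 4096 := by
    have h1 := C.finrank_quotient_add_finrank
    rw [hdim, Module.finrank_fintype_fun_eq_card, Fintype.card_fin] at h1
    rw [Module.card_eq_pow_finrank (K := ZMod 2), ZMod.card, show Module.finrank (ZMod 2) (_ ⧸ C) = 12 by omega]
    norm_num
  have hfib : ∀ w, ∑ u ∈ Finset.univ.filter fun u => C.mkQ u = C.mkQ w, wf (hammingNorm u) =
      ∑ u ∈ small C w, wf (hammingNorm u) := by
    intro w
    symm
    apply Finset.sum_subset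
    · intro u hu
      rw [Finset.mem_filter]
      exact ⟨Finset.mem_univ _, (Submodule.Quotient.eq C).2 (mem_small.1 hu).1⟩
    · intro u hu hu'
      rw [Finset.mem_filter] at hu
      rw [mem_small, not_and] at hu'
      have := hu' ((Submodule.Quotient.eq C).1 hu.2)
      rw [wf, if_neg (by omega), if_neg (by omega)]
  have hle : ∀ q ∈ (Finset.univ : Finset ((Fin 24 → ZMod 2) ⧸ C)),
      ∑ u ∈ Finset.univ.filter fun u => C.mkQ u = q, wf (hammingNorm u) ≤ 6 := by
    intro q _
    obtain ⟨w, rfl⟩ := C.mkQ_surjective q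
    rw [hfib]
    rcases sum_small_cases hmin w with ⟨u, -, -, h⟩ | ⟨h, h'⟩
    · exact h.le
    · rw [h']; exact card_small_le hmin h
  have := (Finset.sum_eq_sum_iff_of_le hle).1 (by
    rw [Finset.sum_const, Finset.card_univ, hq]
    refine Eq.trans ?_ sum_wf
    convert Finset.sum_fiberwise Finset.univ C.mkQ fun u => wf (hammingNorm u)) (C.mkQ w) (Finset.mem_univ _)
  rwa [hfib] at this

theorem exists_small (hdim : Module.finrank (ZMod 2) C = 12) (hmin : ∀ w ∈ C, w ≠ 0 → 8 ≤ hammingNorm w)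
    (w : Fin 24 → ZMod 2) : ∃ u, u - w ∈ C ∧ hammingNorm u ≤ 4 := by
  have := sum_small hdim hmin w
  obtain ⟨u, hu, -⟩ := Finset.exists_ne_zero_of_sum_ne_zero (this ▸ (by norm_num : (6 : ℕ) ≠ 0))
  exact ⟨u, mem_small.1 hu⟩

theorem even_inter (horth : ∀ v ∈ C, ∀ w ∈ C, ∑ i, v i * w i = 0) {v w : Fin 24 → ZMod 2} (hv : v ∈ C)
    (hw : w ∈ C) : Even (support₂ v ∩ support₂ w).card := by
  rw [← ZMod.natCast_eq_zero_iff_even, ← dot_eq]; exact horth v hv w hw

theorem exists_octad (hdim : Module.finrank (ZMod 2) C = 12) (horth : ∀ v ∈ C, ∀ w ∈ C, ∑ i, v i * w i = 0)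
    (hmin : ∀ w ∈ C, w ≠ 0 → 8 ≤ hammingNorm w) {s : Finset (Fin 24)} (hs : s.card = 5) :
    ∃ o ∈ C, hammingNorm o = 8 ∧ s ⊆ support₂ o := by
  obtain ⟨u, hu, h4⟩ := exists_small hdim hmin (indG s)
  have h5 : hammingNorm (indG s) = 5 := by rw [norm_eq, sup_indG, hs]
  have h1 := hmin _ hu (sub_ne_zero.2 fun e => by rw [e] at h4; omega)
  have h2 := even_inter horth hu hu
  rw [Finset.inter_self, ← norm_eq, Nat.even_iff] at h2
  rw [sub_eq] at hu h1 h2
  have h3 := norm_add u (indG s)
  refine ⟨_, hu, by omega, fun p hp => ?_⟩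
  rw [sup_add, sup_indG, Finset.mem_symmDiff]
  refine Or.inr ⟨hp, fun hp' => ?_⟩
  have : 0 < (support₂ u ∩ support₂ (indG s)).card :=
    Finset.card_pos.2 ⟨p, Finset.mem_inter.2 ⟨hp', by rwa [sup_indG]⟩⟩
  omega

theorem octad_induction (hdim : Module.finrank (ZMod 2) C = 12) (horth : ∀ v ∈ C, ∀ w ∈ C, ∑ i, v i * w i = 0)
    (hmin : ∀ w ∈ C, w ≠ 0 → 8 ≤ hammingNorm w) {P : (Fin 24 → ZMod 2) → Prop} (h0 : P 0)
    (hs : ∀ v ∈ C, ∀ o ∈ C, hammingNorm o = 8 → P v → P (v + o)) {w : Fin 24 → ZMod 2} (hw : w ∈ C) : P w := by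
  induction hn : hammingNorm w using Nat.strong_induction_on generalizing w with
  | _ n ih =>
    by_cases h : w = 0
    · rw [h]; exact h0
    · have h8 := hmin w hw h
      obtain ⟨t, ht, hc⟩ := Finset.exists_subset_card_eq (s := support₂ w) (n := 5) (by rw [← norm_eq]; omega)
      obtain ⟨o, ho, h1, h2⟩ := exists_octad hdim horth hmin hc
      have h3 := norm_add w o
      have h4 : 5 ≤ (support₂ w ∩ support₂ o).card := hc ▸ Finset.card_le_card (Finset.subset_inter ht h2)
      have := hs _ (add_mem hw ho) o ho h1 (ih _ (by omega) (add_mem hw ho) rfl)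
      rwa [← sub_eq (w + o), add_sub_cancel_right] at this

end CA.Gol.Abs
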