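import Cfsg.Agent.Lib.Golay.Mod
import Cfsg.Prelude.Def_Spor_Conway

/-!
The Leech lattice: coordinates, norms, generators, monomial automorphisms and Conway's extra automorphism.
-/

set_option autoImplicit false

namespace CA.Gol
open Cfsg
open scoped Pointwise

/-- integer vectors -/
abbrev ZV : Type := GolayPt → ℤ

/-- integral indicator vector -/
def iz (s : Finset GolayPt) : ZV := fun p => if p ∈ s then 1 else 0

theorem sum_iz (s : Finset GolayPt) : ∑ p, iz s p = s.card := by simp [iz]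

theorem iz_cases (s : Finset GolayPt) (p : GolayPt) : (p ∈ s ∧ iz s p = 1) ∨ (p ∉ s ∧ iz s p = 0) := by
  by_cases h : p ∈ s <;> simp [iz, h]

theorem iz_add (s t : Finset GolayPt) (p : GolayPt) : iz s p + iz t p = iz (symmDiff s t) p + 2 * iz (s ∩ t) p := by
  by_cases h : p ∈ s <;> by_cases h' : p ∈ t <;> simp [iz, h, h', Finset.mem_symmDiff]

theorem iz_mul (s t : Finset GolayPt) (p : GolayPt) : iz s p * iz t p = iz (s ∩ t) p := by
  by_cases h : p ∈ s <;> by_cases h' : p ∈ t <;> simp [iz, h, h']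

theorem four_dvd_card {c : Finset GolayPt} (hc : c ∈ CW) : (4 : ℤ) ∣ c.card := by
  have := card_CW hc; omega

/-- coordinate description of the lattice -/
def LS (x : ZV) : Prop :=
  ∃ (m : ℤ) (c : Finset GolayPt) (y : ZV), c ∈ CW ∧ (∀ p, x p = m + 2 * iz c p + 4 * y p) ∧ 2 ∣ ∑ p, y p - m

theorem sum_LS {x : ZV} {m : ℤ} {c : Finset GolayPt} {y : ZV} (h : ∀ p, x p = m + 2 * iz c p + 4 * y p) :
    ∑ p, x p = 24 * m + 2 * c.card + 4 * ∑ p, y p := by
  simp only [h, Finset.sum_add_distrib, ← Finset.mul_sum, sum_iz, Finset.sum_const, Finset.card_univ, card_golayPt]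
  ring

theorem LS_of {x : ZV} {m : ℤ} (h2 : ∀ p, (x p - m) % 2 = 0) (h8 : (∑ p, x p - 4 * m) % 8 = 0)
    (hc : (Finset.univ.filter fun p => (x p - m) % 4 = 2) ∈ CW) : LS x := by
  set c := Finset.univ.filter fun p => (x p - m) % 4 = 2 with hcd
  have h : ∀ p, x p = m + 2 * iz c p + 4 * ((x p - m) / 4) := by
    intro p
    have := h2 p
    rcases iz_cases c p with h | h <;> rw [h.2] <;> simp only [hcd, Finset.mem_filter, Finset.mem_univ, true_and] at h <;>
      omega
  refine ⟨m, c, _, hc, h, ?_⟩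
  have := sum_LS h
  have := four_dvd_card hc
  omega

theorem LS.mem_set {x : ZV} (h : LS x) : x ∈ leechSet := by
  obtain ⟨m, c, y, hc, h, h2⟩ := h
  refine ⟨m, fun p => ?_, ?_, fun k => ?_⟩
  · rw [Int.ModEq, h p]; omega
  · have := sum_LS h
    have := four_dvd_card hc
    rw [Int.ModEq]; omega
  · have key : ∀ s ∈ CW, (∀ p, x p % 4 = k % 4 ↔ p ∈ s) → (Finset.univ.filter fun i => x i ≡ k [ZMOD 4]) ∈ CW := by
      intro s hs e
      rwa [show (Finset.univ.filter fun i => x i ≡ k [ZMOD 4]) = s from Finset.ext fun p => by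
        rw [Finset.mem_filter, ← e p]; simp [Int.ModEq]]
    by_cases h0 : (k - m) % 4 = 2
    · refine key _ hc fun p => ?_
      have := h p
      rcases iz_cases c p with h | h <;> simp only [h.1, iff_true, iff_false] <;> omega
    by_cases h1 : (k - m) % 4 = 0
    · refine key _ (compl_mem_CW hc) fun p => ?_
      have := h p
      rcases iz_cases c p with h | h <;> simp only [Finset.mem_univ, true_and, h.1,
        Finset.mem_sdiff, iff_true, iff_false, not_true, not_false_iff] <;> omega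
    · refine key _ empty_mem_CW fun p => ?_
      have := h p
      simp only [Finset.notMem_empty, iff_false]
      omega

theorem LS_of_set {x : ZV} (h : x ∈ leechSet) : LS x := by
  obtain ⟨m, h1, h2, h3⟩ := h
  refine LS_of (m := m) (fun p => ?_) ?_ ?_
  · have := h1 p; rw [Int.ModEq] at this; omega
  · rw [Int.ModEq] at h2; omega
  · convert h3 (m + 2) using 2
    simp only [Int.ModEq]; omega

theorem LS.add {x x' : ZV} (h : LS x) (h' : LS x') : LS (x + x') := by
  obtain ⟨m, c, y, hc, h, h2⟩ := h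
  obtain ⟨m', c', y', hc', h', h2'⟩ := h'
  refine ⟨m + m', symmDiff c c', fun p => y p + y' p + iz (c ∩ c') p, symmDiff_mem_CW hc hc', fun p => ?_, ?_⟩
  · have := iz_add c c' p
    rw [Pi.add_apply, h p, h' p]; beta_reduce; omega
  · have := even_card_inter hc hc'
    rw [Nat.even_iff] at this
    simp only [Finset.sum_add_distrib, sum_iz]
    omega

theorem LS.neg {x : ZV} (h : LS x) : LS (-x) := by
  obtain ⟨m, c, y, hc, h, h2⟩ := h
  refine ⟨-m, c, fun p => -y p - iz c p, hc, fun p => ?_, ?_⟩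
  · rw [Pi.neg_apply, h p]; ring
  · have := four_dvd_card hc
    simp only [Finset.sum_sub_distrib, Finset.sum_neg_distrib, sum_iz]
    omega

theorem LS_zero : LS 0 := ⟨0, ∅, 0, empty_mem_CW, fun p => by simp [iz], by simp⟩

theorem mem_leech {x : ZV} : x ∈ leechLattice ↔ LS x := by
  constructor
  · intro h
    induction h using AddSubgroup.closure_induction with
    | mem x hx => exact LS_of_set hx
    | zero => exact LS_zero
    | add x y _ _ hx hy => exact hx.add hy
    | neg x _ hx => exact hx.neg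
  · intro h; exact AddSubgroup.subset_closure h.mem_set

theorem four_mem {y : ZV} (h : 2 ∣ ∑ p, y p) : (4 : ℤ) • y ∈ leechLattice :=
  mem_leech.2 ⟨0, ∅, y, empty_mem_CW, fun p => by simp [iz], by simpa using h⟩

theorem eight_mem (y : ZV) : (8 : ℤ) • y ∈ leechLattice := by
  have := four_mem (y := (2 : ℤ) • y) (by simp [← Finset.mul_sum])
  rwa [smul_smul] at this

theorem two_iz_mem {c : Finset GolayPt} (hc : c ∈ CW) : (2 : ℤ) • iz c ∈ leechLattice :=
  mem_leech.2 ⟨0, c, 0, hc, fun p => by simp, by simp⟩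

/-- the vector `(-3, 1, …, 1)` -/
def v0 : ZV := fun p => if p = pt 0 then -3 else 1

theorem v0_eq (p : GolayPt) : v0 p = 1 - 4 * iz {pt 0} p := by
  by_cases h : p = pt 0 <;> simp [v0, iz, h]

theorem one_sub_mem {s : Finset GolayPt} (hs : ¬ Even s.card) : (fun p => 1 - 4 * iz s p) ∈ leechLattice :=
  mem_leech.2 ⟨1, ∅, fun p => -iz s p, empty_mem_CW, fun p => by simp [iz, sub_eq_add_neg], by
    rw [Finset.sum_neg_distrib, sum_iz]; rw [Nat.not_even_iff] at hs; omega⟩

theorem v0_mem : v0 ∈ leechLattice := by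
  rw [show v0 = fun p => 1 - 4 * iz {pt 0} p from funext v0_eq]; exact one_sub_mem (by simp)

/-! ### Norms -/

theorem sqNorm_add (x y : ZV) : sqNorm (x + y) = sqNorm x + sqNorm y + 2 * dotInt x y := by
  simp only [sqNorm, dotInt, Finset.mul_sum, ← Finset.sum_add_distrib, Pi.add_apply]
  exact Finset.sum_congr rfl fun p _ => by ring

theorem sqNorm_sub (x y : ZV) : sqNorm (x - y) = sqNorm x + sqNorm y - 2 * dotInt x y := by
  simp only [sqNorm, dotInt, Finset.mul_sum, ← Finset.sum_add_distrib, ← Finset.sum_sub_distrib, Pi.sub_apply]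
  exact Finset.sum_congr rfl fun p _ => by ring

theorem sqNorm_smul (k : ℤ) (x : ZV) : sqNorm (k • x) = k ^ 2 * sqNorm x := by
  simp only [sqNorm, Finset.mul_sum, Pi.smul_apply, smul_eq_mul]
  exact Finset.sum_congr rfl fun p _ => by ring

theorem sqNorm_neg (x : ZV) : sqNorm (-x) = sqNorm x := by simp [sqNorm]

theorem sqNorm_nonneg (x : ZV) : 0 ≤ sqNorm x := Finset.sum_nonneg fun _ _ => sq_nonneg _

theorem sqNorm_eq_zero {x : ZV} (h : sqNorm x = 0) : x = 0 := by
  funext p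
  exact pow_eq_zero_iff (two_ne_zero) |>.1
    ((Finset.sum_eq_zero_iff_of_nonneg fun _ _ => sq_nonneg _).1 h p (Finset.mem_univ p))

theorem sqNorm_eq_dot (x : ZV) : sqNorm x = dotInt x x := by simp [sqNorm, dotInt, sq]

theorem dot_comm (x y : ZV) : dotInt x y = dotInt y x := by simp [dotInt, mul_comm]

theorem dot_add (x y z : ZV) : dotInt x (y + z) = dotInt x y + dotInt x z := by
  simp [dotInt, mul_add, Finset.sum_add_distrib]

theorem dot_neg (x y : ZV) : dotInt x (-y) = -dotInt x y := by simp [dotInt]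

theorem dot_smul (k : ℤ) (x y : ZV) : dotInt x (k • y) = k * dotInt x y := by
  simp only [dotInt, Finset.mul_sum, Pi.smul_apply, smul_eq_mul]
  exact Finset.sum_congr rfl fun p _ => by ring

theorem dot_iz (x : ZV) (s : Finset GolayPt) : dotInt x (iz s) = ∑ p ∈ s, x p := by
  simp [dotInt, iz]

theorem sqNorm_parity (y : ZV) : 2 ∣ sqNorm y - ∑ p, y p := by
  rw [sqNorm, ← Finset.sum_sub_distrib]
  refine Finset.dvd_sum fun p _ => ?_
  have := Int.even_mul_pred_self (y p)
  rw [show y p ^ 2 - y p = y p * (y p - 1) by ring]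
  exact this.two_dvd

theorem sixteen_dvd {x : ZV} (hx : x ∈ leechLattice) : 16 ∣ sqNorm x := by
  obtain ⟨m, c, y, hc, h, h2⟩ := mem_leech.1 hx
  have e : sqNorm x = 24 * m ^ 2 + 4 * (1 + m) * c.card + 8 * m * ∑ p, y p +
      16 * ∑ p, (y p ^ 2 + iz c p * y p) := by
    have : ∀ p, x p ^ 2 = m ^ 2 + 4 * (1 + m) * iz c p + 8 * m * y p + 16 * (y p ^ 2 + iz c p * y p) := by
      intro p
      rw [h p]
      rcases iz_cases c p with h | h <;> rw [h.2] <;> ring
    simp only [sqNorm, this, Finset.sum_add_distrib (f := fun p => _ + _), Finset.sum_add_distrib (f := fun _ => m ^ 2),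
      ← Finset.mul_sum, sum_iz, Finset.sum_const, Finset.card_univ, card_golayPt]
    ring
  obtain ⟨k, hk⟩ := four_dvd_card hc
  obtain ⟨l, hl⟩ := h2
  rw [e, hk, show ∑ p, y p = m + 2 * l by omega]
  exact ⟨2 * m ^ 2 + (1 + m) * k + m * l + ∑ p, (y p ^ 2 + iz c p * y p), by ring⟩

theorem eight_dvd_dot {x y : ZV} (hx : x ∈ leechLattice) (hy : y ∈ leechLattice) : 8 ∣ dotInt x y := by
  have h1 := sixteen_dvd hx
  have h2 := sixteen_dvd hy
  have h3 := sixteen_dvd (add_mem hx hy)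
  rw [sqNorm_add] at h3
  omega

theorem card_mul_le_sqNorm (x : ZV) (s : Finset GolayPt) (k : ℤ) (h : ∀ p ∈ s, k ≤ x p ^ 2) :
    s.card * k ≤ sqNorm x := by
  calc (s.card : ℤ) * k = ∑ p ∈ s, k := by simp
    _ ≤ ∑ p ∈ s, x p ^ 2 := Finset.sum_le_sum h
    _ ≤ sqNorm x := Finset.sum_le_sum_of_subset_of_nonneg (Finset.subset_univ _) fun _ _ _ => sq_nonneg _

theorem sq_ge_of_ne {a k : ℤ} (hk : 0 ≤ k) (h : a ≤ -k ∨ k ≤ a) : k ^ 2 ≤ a ^ 2 := by
  rcases h with h | h <;> nlinarith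

/-- normal form of even lattice vectors -/
theorem even_form {x : ZV} (hx : x ∈ leechLattice) {q : GolayPt} (hq : 2 ∣ x q) :
    ∃ c ∈ CW, ∃ y : ZV, (∀ p, x p = 2 * iz c p + 4 * y p) ∧ 2 ∣ ∑ p, y p := by
  obtain ⟨m, c, y, hc, h, h2⟩ := mem_leech.1 hx
  have h0 := h q
  by_cases hm : m % 4 = 0
  · refine ⟨c, hc, fun p => y p + m / 4, fun p => by rw [h p]; beta_reduce; omega, ?_⟩
    simp only [Finset.sum_add_distrib, Finset.sum_const, Finset.card_univ, card_golayPt, nsmul_eq_mul]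
    omega
  · refine ⟨_, compl_mem_CW hc, fun p => y p + m / 4 + iz c p, fun p => ?_, ?_⟩
    · have := iz_add c (Finset.univ) p
      rw [← compl_eq_symmDiff, Finset.inter_univ, show iz Finset.univ p = 1 by simp [iz]] at this
      rw [h p]; beta_reduce; omega
    · have := four_dvd_card hc
      simp only [Finset.sum_add_distrib, Finset.sum_const, Finset.card_univ, card_golayPt, nsmul_eq_mul, sum_iz]
      omega

theorem same_parity {x : ZV} (hx : x ∈ leechLattice) (p q : GolayPt) : 2 ∣ x p - x q := by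
  obtain ⟨m, c, y, -, h, -⟩ := mem_leech.1 hx
  rw [h p, h q]; omega

theorem min_norm {x : ZV} (hx : x ∈ leechLattice) (h0 : x ≠ 0) : 32 ≤ sqNorm x := by
  have h1 := sixteen_dvd hx
  have h2 := sqNorm_nonneg x
  have h3 : sqNorm x ≠ 0 := fun e => h0 (sqNorm_eq_zero e)
  by_contra hlt
  have h16 : sqNorm x = 16 := by omega
  by_cases he : 2 ∣ x (pt 0)
  · obtain ⟨c, hc, y, h, hy⟩ := even_form hx he
    have h4 := card_mul_le_sqNorm x c 4 fun p hp => by
      have := h p
      rw [iz, if_pos hp] at this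
      exact sq_ge_of_ne (k := 2) (by norm_num) (by omega)
    have h5 := card_CW hc
    have h6 : c = ∅ := Finset.card_eq_zero.1 (by omega)
    have h7 : x = (4 : ℤ) • y := funext fun p => by rw [h p, h6]; simp [iz]
    rw [h7, sqNorm_smul] at h16
    have := sqNorm_parity y
    omega
  · have h4 := card_mul_le_sqNorm x Finset.univ 1 fun p _ => by
      have := same_parity hx p (pt 0)
      exact sq_ge_of_ne (k := 1) (by norm_num) (by omega)
    rw [Finset.card_univ, card_golayPt] at h4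
    omega

theorem short_congr {x y z : ZV} (hy : y ∈ leechLattice) (hz : z ∈ leechLattice) (hc : x - y = 2 • z)
    (hxn : sqNorm x ≤ 64) (hyn : sqNorm y ≤ 64) :
    x = y ∨ x = -y ∨ (sqNorm x = 64 ∧ sqNorm y = 64 ∧ dotInt x y = 0) := by
  have hc' : x + y = 2 • (z + y) := by rw [smul_add, ← hc, two_smul]; abel
  by_cases h1 : z = 0
  · left; rw [h1, smul_zero, sub_eq_zero] at hc; exact hc
  by_cases h2 : z + y = 0
  · right; left; rw [h2, smul_zero, add_eq_zero_iff_eq_neg] at hc'; exact hc'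
  have k1 := min_norm hz h1
  have k2 := min_norm (add_mem hz hy) h2
  have k3 := sqNorm_sub x y
  have k4 := sqNorm_add x y
  rw [hc, ← ofNat_zsmul, sqNorm_smul] at k3
  rw [hc', ← ofNat_zsmul, sqNorm_smul] at k4
  right; right; omega

/-! ### Generators -/

theorem four_mem_of {H : AddSubgroup ZV} (h4 : ∀ a b, a ≠ b → (4 : ℤ) • iz {a, b} ∈ H) {y : ZV}
    (hy : 2 ∣ ∑ p, y p) : (4 : ℤ) • y ∈ H := by
  have h8 : (8 : ℤ) • iz {pt 0} ∈ H := by
    have := sub_mem (add_mem (h4 (pt 0) (pt 1) (by decide)) (h4 (pt 0) (pt 2) (by decide))) (h4 (pt 1) (pt 2) (by decide))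
    convert this using 1
    decide +kernel
  have h5 : ∀ a, (4 : ℤ) • (iz {a} + iz {pt 0}) ∈ H := by
    intro a
    by_cases ha : a = pt 0
    · rw [ha, ← two_smul ℤ, smul_smul]; exact h8
    · convert h4 a (pt 0) ha using 2
      funext p
      by_cases h1 : p = a <;> by_cases h2 : p = pt 0 <;> simp_all [iz]
  obtain ⟨k, hk⟩ := hy
  have : (4 : ℤ) • y = ∑ a, y a • ((4 : ℤ) • (iz {a} + iz {pt 0})) - k • ((8 : ℤ) • iz {pt 0}) := by
    funext p
    simp only [Pi.smul_apply, Pi.sub_apply, Finset.sum_apply, Pi.add_apply, smul_eq_mul, mul_add,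
      Finset.sum_add_distrib, ← Finset.sum_mul, hk]
    have : ∑ a, y a * (4 * iz {a} p) = y p * 4 := by
      rw [Finset.sum_eq_single p (fun b _ hb => by simp [iz, hb.symm]) (by simp)]; simp [iz]
    rw [this]; ring
  rw [this]
  exact sub_mem (sum_mem fun a _ => zsmul_mem (h5 a) _) (zsmul_mem h8 _)

theorem two_iz_symmDiff {H : AddSubgroup ZV} (h4 : ∀ a b, a ≠ b → (4 : ℤ) • iz {a, b} ∈ H) {s t : Finset GolayPt}
    (hs : s ∈ CW ∧ (2 : ℤ) • iz s ∈ H) (ht : t ∈ CW ∧ (2 : ℤ) • iz t ∈ H) :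
    symmDiff s t ∈ CW ∧ (2 : ℤ) • iz (symmDiff s t) ∈ H := by
  refine ⟨symmDiff_mem_CW hs.1 ht.1, ?_⟩
  have h1 := even_card_inter hs.1 ht.1
  rw [Nat.even_iff] at h1
  have := sub_mem (add_mem hs.2 ht.2) (four_mem_of h4 (y := iz (s ∩ t)) (by rw [sum_iz]; omega))
  convert this using 1
  funext p
  have := iz_add s t p
  simp only [Pi.smul_apply, Pi.sub_apply, Pi.add_apply, smul_eq_mul]
  omega

theorem two_iz_mem_of {H : AddSubgroup ZV} (h4 : ∀ a b, a ≠ b → (4 : ℤ) • iz {a, b} ∈ H)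
    (h2 : ∀ j < 12, (2 : ℤ) • iz (fs (fld 24 basT j)) ∈ H) {c : Finset GolayPt} (hc : c ∈ CW) :
    (2 : ℤ) • iz c ∈ H :=
  (CW_induction (P := fun s => s ∈ CW ∧ (2 : ℤ) • iz s ∈ H)
    ⟨empty_mem_CW, by rw [show iz ∅ = 0 from rfl, smul_zero]; exact zero_mem _⟩ (fun _ _ => two_iz_symmDiff h4)
    (fun j hj => ⟨bas_mem_CW hj, h2 j hj⟩) hc).2

theorem even_mem_of {H : AddSubgroup ZV} (h4 : ∀ a b, a ≠ b → (4 : ℤ) • iz {a, b} ∈ H)
    (h2 : ∀ j < 12, (2 : ℤ) • iz (fs (fld 24 basT j)) ∈ H) {x : ZV} (hx : x ∈ leechLattice) {q : GolayPt}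
    (hq : 2 ∣ x q) : x ∈ H := by
  obtain ⟨c, hc, y, h, hy⟩ := even_form hx hq
  rw [show x = (2 : ℤ) • iz c + (4 : ℤ) • y from funext h]
  exact add_mem (two_iz_mem_of h4 h2 hc) (four_mem_of h4 hy)

theorem leech_le_of {H : AddSubgroup ZV} (h4 : ∀ a b, a ≠ b → (4 : ℤ) • iz {a, b} ∈ H)
    (h2 : ∀ j < 12, (2 : ℤ) • iz (fs (fld 24 basT j)) ∈ H) {u : ZV} (hu : u ∈ leechLattice) (hu' : u ∈ H)
    (hodd : ¬ 2 ∣ u (pt 0)) : leechLattice ≤ H := by
  intro x hx
  by_cases h : 2 ∣ x (pt 0)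
  · exact even_mem_of h4 h2 hx h
  · have := add_mem (even_mem_of h4 h2 (sub_mem hx hu) (q := pt 0) (by rw [Pi.sub_apply]; omega)) hu'
    rwa [sub_add_cancel] at this

theorem bas_mem_octads {j : ℕ} (hj : j < 12) : fs (fld 24 basT j) ∈ octads :=
  fs_mem_octads (allLt_iff.1 (by decide +kernel : allLt (fun j => isOct (fld 24 basT j)) 12 = true) j hj)

/-! ### Automorphisms -/

/-- `f` is induced by a lattice automorphism -/
def IsCo (f : ZV → ZV) : Prop := ∃ e : Co0, ∀ v : leechLattice, ((e • v : leechLattice) : ZV) = f v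

theorem isCo_of {f g : ZV → ZV} (hf : ∀ x ∈ leechLattice, f x ∈ leechLattice)
    (hg : ∀ x ∈ leechLattice, g x ∈ leechLattice) (hfg : ∀ x ∈ leechLattice, f (g x) = x)
    (hgf : ∀ x ∈ leechLattice, g (f x) = x) (hadd : ∀ x ∈ leechLattice, ∀ y ∈ leechLattice, f (x + y) = f x + f y)
    (hn : ∀ x ∈ leechLattice, sqNorm (f x) = sqNorm x) : IsCo f :=
  ⟨⟨⟨fun v => ⟨f v, hf v v.2⟩, fun v => ⟨g v, hg v v.2⟩, fun v => Subtype.ext (hgf v v.2),
    fun v => Subtype.ext (hfg v v.2)⟩, fun v w => Subtype.ext (hadd v v.2 w w.2), fun v => hn v v.2⟩, fun _ => rfl⟩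

theorem co_add (g : Co0) (v w : leechLattice) : g • (v + w) = g • v + g • w := g.2.1 v w
theorem co_norm (g : Co0) (v : leechLattice) : sqNorm ((g • v : leechLattice) : ZV) = sqNorm (v : ZV) := g.2.2 v

/-- an automorphism as an additive map -/
def coHom (g : Co0) : leechLattice →+ leechLattice := AddMonoidHom.mk' (fun v => g • v) (co_add g)

theorem co_zero (g : Co0) : g • (0 : leechLattice) = 0 := (coHom g).map_zero
theorem co_neg (g : Co0) (v : leechLattice) : g • (-v) = -(g • v) := (coHom g).map_neg v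
theorem co_sub (g : Co0) (v w : leechLattice) : g • (v - w) = g • v - g • w := (coHom g).map_sub v w
theorem co_zsmul (g : Co0) (k : ℤ) (v : leechLattice) : g • (k • v) = k • (g • v) := (coHom g).map_zsmul k v

theorem co_dot (g : Co0) (v w : leechLattice) :
    dotInt ((g • v : leechLattice) : ZV) ((g • w : leechLattice) : ZV) = dotInt (v : ZV) w := by
  have h1 := co_norm g (v + w)
  rw [co_add, AddSubgroup.coe_add, AddSubgroup.coe_add, sqNorm_add, sqNorm_add, co_norm, co_norm] at h1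
  omega

theorem IsCo.mem {f : ZV → ZV} (h : IsCo f) {x : ZV} (hx : x ∈ leechLattice) : f x ∈ leechLattice := by
  obtain ⟨e, he⟩ := h
  rw [← he ⟨x, hx⟩]; exact (e • (⟨x, hx⟩ : leechLattice)).2

theorem IsCo.norm {f : ZV → ZV} (h : IsCo f) {x : ZV} (hx : x ∈ leechLattice) : sqNorm (f x) = sqNorm x := by
  obtain ⟨e, he⟩ := h
  rw [← he ⟨x, hx⟩]; exact co_norm e ⟨x, hx⟩

/-- coordinate permutation -/
def pm (σ : Equiv.Perm GolayPt) (x : ZV) : ZV := fun p => x (σ⁻¹ p)

/-- sign change -/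
def sg (c : Finset GolayPt) (x : ZV) : ZV := fun p => if p ∈ c then -x p else x p

theorem pm_iz (σ : Equiv.Perm GolayPt) (s : Finset GolayPt) : pm σ (iz s) = iz (σ • s) := by
  funext p; simp only [pm, iz, mem_smul_iff]

theorem pm_smul (σ : Equiv.Perm GolayPt) (k : ℤ) (x : ZV) : pm σ (k • x) = k • pm σ x := rfl

theorem pm_mem {σ : Equiv.Perm GolayPt} (hσ : σ ∈ M24) {x : ZV} (hx : x ∈ leechLattice) :
    pm σ x ∈ leechLattice := by
  obtain ⟨m, c, y, hc, h, h2⟩ := mem_leech.1 hx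
  refine mem_leech.2 ⟨m, σ • c, pm σ y, smul_mem_CW hσ hc, fun p => by rw [← pm_iz]; exact h _, ?_⟩
  rwa [show ∑ p, pm σ y p = ∑ p, y p from Equiv.sum_comp σ⁻¹ y]

theorem isCo_pm {σ : Equiv.Perm GolayPt} (hσ : σ ∈ M24) : IsCo (pm σ) :=
  isCo_of (g := pm σ⁻¹) (fun _ => pm_mem hσ) (fun _ => pm_mem (inv_mem hσ))
    (fun x _ => by funext p; simp [pm]) (fun x _ => by funext p; simp [pm]) (fun _ _ _ _ => rfl)
    (fun x _ => Equiv.sum_comp σ⁻¹ fun p => x p ^ 2)

theorem sg_eq (c : Finset GolayPt) (x : ZV) (p : GolayPt) : sg c x p = x p - 2 * (iz c p * x p) := by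
  by_cases h : p ∈ c <;> simp [sg, iz, h]; ring

theorem sg_mem {d : Finset GolayPt} (hd : d ∈ CW) {x : ZV} (hx : x ∈ leechLattice) : sg d x ∈ leechLattice := by
  obtain ⟨m, c, y, hc, h, h2⟩ := mem_leech.1 hx
  have e : sg d x = x - (m • ((2 : ℤ) • iz d) + (4 : ℤ) • iz (d ∩ c) + (8 : ℤ) • fun p => iz d p * y p) := by
    funext p
    simp only [sg_eq, Pi.sub_apply, Pi.add_apply, Pi.smul_apply, smul_eq_mul, ← iz_mul, h p]
    ring
  have h1 := even_card_inter hd hc
  rw [Nat.even_iff] at h1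
  rw [e]
  exact sub_mem hx (add_mem (add_mem (zsmul_mem (two_iz_mem hd) _) (four_mem (by rw [sum_iz]; omega))) (eight_mem _))

theorem isCo_sg {d : Finset GolayPt} (hd : d ∈ CW) : IsCo (sg d) :=
  isCo_of (g := sg d) (fun _ => sg_mem hd) (fun _ => sg_mem hd)
    (fun x _ => by funext p; by_cases h : p ∈ d <;> simp [sg, h])
    (fun x _ => by funext p; by_cases h : p ∈ d <;> simp [sg, h])
    (fun x _ y _ => by funext p; by_cases h : p ∈ d <;> simp [sg, h, add_comm])
    (fun x _ => Finset.sum_congr rfl fun p _ => by by_cases h : p ∈ d <;> simp [sg, h])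

theorem isCo_neg : IsCo fun x => -x := by
  have := isCo_sg univ_mem_CW
  rwa [show sg Finset.univ = fun x => -x by funext x p; simp [sg]] at this

/-- twice the matrix of Conway's automorphism -/
def xiM : Matrix GolayPt GolayPt ℤ := fun p q =>
  (if ix p < 4 then -1 else 1) * ((if p = q then 2 else 0) -
    if tb (fld 24 0x824020400a40342000342000098100342000824020098100098100824020342000001490400a40001490400a40098100001490400a4082402000149000000f00000f00000f00000f (ix p)) (ix q) = true then 1 else 0)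

/-- Conway's automorphism -/
def xi (x : ZV) : ZV := fun p => xiM.mulVec x p / 2

theorem xiM_sq : xiM * xiM = (4 : ℤ) • (1 : Matrix GolayPt GolayPt ℤ) := by decide +kernel
theorem xiM_symm : xiM.transpose = xiM := by decide +kernel

/-- sufficient test for membership in the lattice -/
def isL (x : ZV) : Prop := (∀ p, (x p - x (pt 0)) % 2 = 0) ∧ (∑ p, x p - 4 * x (pt 0)) % 8 = 0 ∧
  isCode (mask (Finset.univ.filter fun p => (x p - x (pt 0)) % 4 = 2)) = true

instance instDecIsL (x : ZV) : Decidable (isL x) := by unfold isL; infer_instance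

theorem isL.mem {x : ZV} (h : isL x) : x ∈ leechLattice :=
  mem_leech.2 (LS_of h.1 h.2.1 (by have := fs_mem_CW h.2.2; rwa [fs_mask] at this))

theorem xi_spec {x : ZV} (hx : x ∈ leechLattice) : xi x ∈ leechLattice ∧ xiM.mulVec x = (2 : ℤ) • xi x := by
  let H : AddSubgroup ZV := (leechLattice.map (DistribSMul.toAddMonoidHom ZV (2 : ℤ))).comap
    (Matrix.mulVecLin xiM).toAddMonoidHom
  have key : ∀ y : ZV, isL (xi y) ∧ (2 : ℤ) • xi y = xiM.mulVec y → y ∈ H := fun y hy => ⟨xi y, hy.1.mem, hy.2⟩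
  have h0 : ∀ a, (4 : ℤ) • (iz {a} + iz {pt 0}) ∈ H := fun a => key _ (by revert a; decide +kernel)
  have h4 : ∀ a b, a ≠ b → (4 : ℤ) • iz {a, b} ∈ H := by
    intro a b hab
    convert sub_mem (add_mem (h0 a) (h0 b)) (h0 (pt 0)) using 1
    funext p
    have := iz_add {a} {b} p
    simp only [Pi.smul_apply, Pi.sub_apply, Pi.add_apply, smul_eq_mul]
    by_cases h1 : p = a <;> by_cases h2 : p = b <;> simp_all [iz] <;> split_ifs <;> simp
  have h2 : ∀ j : Fin 12, (2 : ℤ) • iz (fs (fld 24 basT j)) ∈ H := fun j => key _ (by revert j; decide +kernel)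
  obtain ⟨y, hy, e⟩ := leech_le_of h4 (fun j hj => h2 ⟨j, hj⟩) v0_mem (key _ (by decide +kernel)) (by decide) hx
  replace e : (2 : ℤ) • y = xiM.mulVec x := e
  have : xi x = y := by
    funext p
    rw [xi, ← e, Pi.smul_apply, smul_eq_mul]; omega
  rw [this]; exact ⟨hy, e.symm⟩

theorem two_smul_cancel {x y : ZV} (h : (2 : ℤ) • x = (2 : ℤ) • y) : x = y := smul_right_injective _ two_ne_zero h

theorem xi_xi {x : ZV} (hx : x ∈ leechLattice) : xi (xi x) = x := by
  have h1 := xi_spec hx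
  have h2 := xi_spec h1.1
  apply two_smul_cancel
  apply two_smul_cancel
  rw [← h2.2, ← Matrix.mulVec_smul, ← h1.2, Matrix.mulVec_mulVec, xiM_sq, Matrix.smul_mulVec, Matrix.one_mulVec,
    smul_smul]
  rfl

theorem isCo_xi : IsCo xi := by
  refine isCo_of (g := xi) (fun _ h => (xi_spec h).1) (fun _ h => (xi_spec h).1) (fun _ => xi_xi) (fun _ => xi_xi)
    (fun x hx y hy => ?_) fun x hx => ?_
  · apply two_smul_cancel
    rw [smul_add, ← (xi_spec hx).2, ← (xi_spec hy).2, ← (xi_spec (add_mem hx hy)).2, Matrix.mulVec_add]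
  · have h1 := sqNorm_smul 2 (xi x)
    have h2 : sqNorm (xiM.mulVec x) = 4 * sqNorm x := by
      rw [sqNorm_eq_dot, sqNorm_eq_dot]
      show dotProduct _ _ = 4 * dotProduct x x
      rw [Matrix.dotProduct_mulVec, Matrix.vecMul_mulVec, xiM_symm, xiM_sq, Matrix.vecMul_smul, Matrix.vecMul_one,
        smul_dotProduct]
      rfl
    rw [← (xi_spec hx).2] at h1
    omega

theorem xi_zero {x : ZV} (hx : x ∈ leechLattice) :
    2 * xi x (pt 0) = x (pt 1) + x (pt 2) + x (pt 3) - x (pt 0) := by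
  have h := congrFun (xi_spec hx).2 (pt 0)
  rw [Pi.smul_apply, smul_eq_mul] at h
  rw [← h]
  have e : xiM (pt 0) = iz {pt 1} + iz {pt 2} + iz {pt 3} - iz {pt 0} := by decide +kernel
  show dotProduct (xiM (pt 0)) x = _
  rw [e, sub_dotProduct, add_dotProduct, add_dotProduct]
  simp [dotProduct, iz]

end CA.Gol
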