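import Cfsg.Agent.Lib.Golay.Steiner
import Cfsg.Agent.Lib.Golay.Bits

/-!
The projective plane of order four: hyperovals and uniqueness.
-/

set_option autoImplicit false
set_option linter.unusedSectionVars false

namespace CA.Gol.St
open Cfsg

variable {α : Type*} [Fintype α] [DecidableEq α]

/-- a projective plane of order four -/
structure Pl (L : Set (Finset α)) : Prop where
  card : Fintype.card α = 21
  st : IsSteinerSystem 2 5 L

/-- no line meets `S` in more than two points -/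
def Indep (L : Set (Finset α)) (S : Finset α) : Prop := ∀ l ∈ L, (l ∩ S).card ≤ 2

/-- `z` is on no secant of `S` -/
def Off (L : Set (Finset α)) (S : Finset α) (z : α) : Prop := z ∉ S ∧ ∀ l ∈ L, z ∈ l → (l ∩ S).card ≤ 1

open Classical in
/-- the line through two points -/
noncomputable def ln (L : Set (Finset α)) (p q : α) : Finset α :=
  if h : ∃ l ∈ L, p ∈ l ∧ q ∈ l then h.choose else ∅

namespace Pl
variable {L : Set (Finset α)} (h : Pl L)
include h

theorem five {l : Finset α} (hl : l ∈ L) : l.card = 5 := h.st.1 l hl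

theorem uniq {l l' : Finset α} (hl : l ∈ L) (hl' : l' ∈ L) {p q : α} (hpq : p ≠ q) (h1 : p ∈ l) (h2 : q ∈ l)
    (h3 : p ∈ l') (h4 : q ∈ l') : l = l' := by
  obtain ⟨b, -, hu⟩ := h.st.2 {p, q} (Finset.card_pair hpq)
  rw [hu l ⟨hl, by simp [Finset.insert_subset_iff, h1, h2]⟩, hu l' ⟨hl', by simp [Finset.insert_subset_iff, h3, h4]⟩]

theorem ln_spec {p q : α} (hpq : p ≠ q) : ln L p q ∈ L ∧ p ∈ ln L p q ∧ q ∈ ln L p q := by
  have : ∃ l ∈ L, p ∈ l ∧ q ∈ l := by
    obtain ⟨b, hb, -⟩ := h.st.2 {p, q} (Finset.card_pair hpq)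
    exact ⟨b, hb.1, hb.2 (by simp), hb.2 (by simp)⟩
  rw [ln, dif_pos this]
  exact this.choose_spec

theorem eq_ln {l : Finset α} (hl : l ∈ L) {p q : α} (hpq : p ≠ q) (h1 : p ∈ l) (h2 : q ∈ l) : l = ln L p q :=
  h.uniq hl (h.ln_spec hpq).1 hpq h1 h2 (h.ln_spec hpq).2.1 (h.ln_spec hpq).2.2

theorem card_thru (p : α) : (thru L {p}).card = 5 :=
  card_thru_of (i := 1) (m := 1) (m' := 5) h.st.1 (fun _ hs => card_thru_top h.st hs) (by norm_num)
    (by rw [h.card]) _ (Finset.card_singleton p)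

theorem ln_thru {p q : α} (hpq : p ≠ q) : ln L p q ∈ thru L {p} :=
  mem_thru.2 ⟨(h.ln_spec hpq).1, Finset.singleton_subset_iff.2 (h.ln_spec hpq).2.1⟩

theorem meet {l l' : Finset α} (hl : l ∈ L) (hl' : l' ∈ L) : ∃ p, p ∈ l ∧ p ∈ l' := by
  by_contra hcon
  push Not at hcon
  obtain ⟨q, hq⟩ := Finset.card_pos.1 (show 0 < l'.card by rw [h.five hl']; norm_num)
  have hne : ∀ p ∈ l, q ≠ p := fun p hp e => hcon p hp (e ▸ hq)
  have := Finset.card_le_card_of_injOn (s := l) (t := (thru L {q}).erase l') (fun p => ln L q p)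
    (fun p hp => by
      rw [Finset.mem_coe, Finset.mem_erase]
      exact ⟨fun e => hcon p hp (e ▸ (h.ln_spec (hne p hp)).2.2), h.ln_thru (hne p hp)⟩)
    (fun p hp p' hp' e => by
      by_contra hpp
      have e1 := h.uniq hl (h.ln_spec (hne p hp)).1 hpp hp hp' (h.ln_spec (hne p hp)).2.2
        (by rw [show ln L q p = ln L q p' from e]; exact (h.ln_spec (hne p' hp')).2.2)
      exact hcon q (e1 ▸ (h.ln_spec (hne p hp)).2.1) hq)
  rw [Finset.card_erase_of_mem (mem_thru.2 ⟨hl', Finset.singleton_subset_iff.2 hq⟩), h.card_thru, h.five hl] at this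
  omega

omit h in
theorem three_le {l S : Finset α} {a b c : α} (hab : a ≠ b) (hac : a ≠ c) (hbc : b ≠ c) (ha : a ∈ l) (hb : b ∈ l)
    (hc : c ∈ l) (ha' : a ∈ S) (hb' : b ∈ S) (hc' : c ∈ S) : 3 ≤ (l ∩ S).card := by
  rw [← Finset.card_eq_three.2 ⟨a, b, c, hab, hac, hbc, rfl⟩]
  apply Finset.card_le_card
  simp [Finset.insert_subset_iff, *]

omit h in
theorem two_le {l S : Finset α} {a b : α} (hab : a ≠ b) (ha : a ∈ l) (hb : b ∈ l)
    (ha' : a ∈ S) (hb' : b ∈ S) : 2 ≤ (l ∩ S).card := by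
  rw [← Finset.card_pair hab]
  apply Finset.card_le_card
  simp [Finset.insert_subset_iff, *]

/-- a tangent to a quadrangle carries exactly one point on no secant -/
theorem tangent {S : Finset α} (hS : S.card = 4) (hI : Indep L S) {q : α} (hq : q ∈ S) {t : Finset α} (ht : t ∈ L)
    (hqt : q ∈ t) (h1 : (t ∩ S).card ≤ 1) : ∃! z, z ∈ t ∧ Off L S z := by
  obtain ⟨a, b, c, hab, hac, hbc, e⟩ := Finset.card_eq_three.1
    (show (S.erase q).card = 3 by rw [Finset.card_erase_of_mem hq, hS])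
  have hmem : ∀ x, x ∈ S ↔ x = q ∨ x = a ∨ x = b ∨ x = c := by
    intro x
    rw [← Finset.insert_erase hq, e]; simp
  have ha : a ∈ S.erase q := by rw [e]; simp
  have hb : b ∈ S.erase q := by rw [e]; simp
  have hc : c ∈ S.erase q := by rw [e]; simp
  rw [Finset.mem_erase] at ha hb hc
  have hnt : ∀ x ∈ S, x ≠ q → x ∉ t := fun x hx hxq hxt => by
    have := two_le hxq hxt hqt hx hq; omega
  obtain ⟨l1, l1a, l1b⟩ := h.ln_spec hab
  obtain ⟨l2, l2a, l2c⟩ := h.ln_spec hac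
  obtain ⟨l3, l3b, l3c⟩ := h.ln_spec hbc
  obtain ⟨p1, p1t, p1l⟩ := h.meet ht l1
  obtain ⟨p2, p2t, p2l⟩ := h.meet ht l2
  obtain ⟨p3, p3t, p3l⟩ := h.meet ht l3
  have q1 : p1 ≠ q := fun e => by
    have := three_le hab ha.1 hb.1 l1a l1b (e ▸ p1l) ha.2 hb.2 hq
    have := hI _ l1; omega
  have q2 : p2 ≠ q := fun e => by
    have := three_le hac ha.1 hc.1 l2a l2c (e ▸ p2l) ha.2 hc.2 hq
    have := hI _ l2; omega
  have q3 : p3 ≠ q := fun e => by
    have := three_le hbc hb.1 hc.1 l3b l3c (e ▸ p3l) hb.2 hc.2 hq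
    have := hI _ l3; omega
  have d12 : p1 ≠ p2 := fun e => by
    have e1 := h.uniq l1 l2 (p := p1) (q := a) (fun e => hnt a ha.2 ha.1 (e ▸ p1t)) p1l l1a (e ▸ p2l) l2a
    have := three_le hab hac hbc l1a l1b (e1 ▸ l2c) ha.2 hb.2 hc.2
    have := hI _ l1; omega
  have d13 : p1 ≠ p3 := fun e => by
    have e1 := h.uniq l1 l3 (p := p1) (q := b) (fun e => hnt b hb.2 hb.1 (e ▸ p1t)) p1l l1b (e ▸ p3l) l3b
    have := three_le hab hac hbc l1a l1b (e1 ▸ l3c) ha.2 hb.2 hc.2
    have := hI _ l1; omega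
  have d23 : p2 ≠ p3 := fun e => by
    have e1 := h.uniq l2 l3 (p := p2) (q := c) (fun e => hnt c hc.2 hc.1 (e ▸ p2t)) p2l l2c (e ▸ p3l) l3c
    have := three_le hab hac hbc l2a (e1 ▸ l3b) l2c ha.2 hb.2 hc.2
    have := hI _ l2; omega
  have hsub : ({q, p1, p2, p3} : Finset α) ⊆ t := by simp [Finset.insert_subset_iff, *]
  have hc4 : ({q, p1, p2, p3} : Finset α).card = 4 := by
    rw [Finset.card_insert_of_notMem (by simp [q1.symm, q2.symm, q3.symm]),
      Finset.card_eq_three.2 ⟨_, _, _, d12, d13, d23, rfl⟩]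
  obtain ⟨z, hz⟩ := Finset.card_eq_one.1 (show (t \ {q, p1, p2, p3}).card = 1 by
    rw [Finset.card_sdiff_of_subset hsub, h.five ht, hc4])
  have hz' : ∀ x, x = z ↔ x ∈ t ∧ x ≠ q ∧ x ≠ p1 ∧ x ≠ p2 ∧ x ≠ p3 := by
    intro x
    rw [← Finset.mem_singleton, ← hz]; simp
  obtain ⟨zt, zq, z1, z2, z3⟩ := (hz' z).1 rfl
  refine ⟨z, ⟨zt, fun hzS => hnt z hzS zq zt, fun l hl hzl => ?_⟩, ?_⟩
  · by_contra hcon
    obtain ⟨u, hu, v, hv, huv⟩ := Finset.one_lt_card.1 (not_le.1 hcon)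
    rw [Finset.mem_inter] at hu hv
    have hq' : q ∉ l := fun hql => by
      have e1 := h.uniq hl ht zq hzl hql zt hqt
      have := two_le huv (e1 ▸ hu.1) (e1 ▸ hv.1) hu.2 hv.2; omega
    have k : ∀ {x y p : α}, x ≠ y → x ∈ S → x ≠ q → p ∈ t → p ∈ ln L x y → z ≠ p → x ∈ l → y ∈ l → False := by
      intro x y p hxy hx hxq hpt hpl hzp hxl hyl
      have e1 := h.eq_ln hl hxy hxl hyl
      have e2 := h.uniq hl ht hzp hzl (e1 ▸ hpl) zt hpt
      exact hq' (e2 ▸ hqt)
    have k1 := k hab ha.2 ha.1 p1t p1l z1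
    have k2 := k hac ha.2 ha.1 p2t p2l z2
    have k3 := k hbc hb.2 hb.1 p3t p3l z3
    obtain ⟨hu1, hu2⟩ := hu
    obtain ⟨hv1, hv2⟩ := hv
    rw [hmem] at hu2 hv2
    rcases hu2 with rfl | rfl | rfl | rfl <;> rcases hv2 with rfl | rfl | rfl | rfl <;>
      first | exact huv rfl | exact hq' hu1 | exact hq' hv1 | exact k1 hu1 hv1 | exact k1 hv1 hu1 | exact k2 hu1 hv1 |
        exact k2 hv1 hu1 | exact k3 hu1 hv1 | exact k3 hv1 hu1
  · rintro y ⟨yt, yS, hy⟩
    rw [hz']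
    refine ⟨yt, fun e => yS (e ▸ hq), fun e => ?_, fun e => ?_, fun e => ?_⟩
    · have := hy _ l1 (e ▸ p1l)
      have := two_le hab l1a l1b ha.2 hb.2; omega
    · have := hy _ l2 (e ▸ p2l)
      have := two_le hac l2a l2c ha.2 hc.2; omega
    · have := hy _ l3 (e ▸ p3l)
      have := two_le hbc l3b l3c hb.2 hc.2; omega

open Classical in
theorem card_off {S : Finset α} (hS : S.card = 4) (hI : Indep L S) :
    (Finset.univ.filter (Off L S)).card = 2 := by
  obtain ⟨q, hq⟩ := Finset.card_pos.1 (show 0 < S.card by omega)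
  have h1 : ((thru L {q}).filter fun l => ¬ (l ∩ S).card ≤ 1).card = 3 := by
    rw [show 3 = (S.erase q).card by rw [Finset.card_erase_of_mem hq, hS]]
    symm
    apply Finset.card_bij (fun p _ => ln L q p)
    · intro p hp
      rw [Finset.mem_erase] at hp
      have := h.ln_spec hp.1.symm
      have := two_le hp.1 this.2.2 this.2.1 hp.2 hq
      exact Finset.mem_filter.2 ⟨h.ln_thru hp.1.symm, by omega⟩
    · intro p hp p' hp' e
      rw [Finset.mem_erase] at hp hp'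
      by_contra hne
      have k := h.ln_spec hp.1.symm
      have := three_le hne hp.1 hp'.1 k.2.2 (e ▸ (h.ln_spec hp'.1.symm).2.2) k.2.1 hp.2 hp'.2 hq
      have := hI _ k.1; omega
    · intro l hl
      rw [Finset.mem_filter, mem_thru, Finset.singleton_subset_iff] at hl
      obtain ⟨p, hp, hpq⟩ := Finset.exists_mem_ne (not_le.1 hl.2) q
      rw [Finset.mem_inter] at hp
      exact ⟨p, Finset.mem_erase.2 ⟨hpq, hp.2⟩, (h.eq_ln hl.1.1 hpq.symm hl.1.2 hp.1).symm⟩
  have h2 := Finset.card_filter_add_card_filter_not (s := thru L {q}) fun l => (l ∩ S).card ≤ 1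
  rw [h1, h.card_thru] at h2
  rw [show 2 = ((thru L {q}).filter fun l => (l ∩ S).card ≤ 1).card by omega]
  have hne : ∀ z, Off L S z → q ≠ z := fun z hz e => hz.1 (e ▸ hq)
  apply Finset.card_bij (fun z _ => ln L q z)
  · intro z hz
    rw [Finset.mem_filter] at hz
    have k := h.ln_spec (hne z hz.2)
    exact Finset.mem_filter.2 ⟨h.ln_thru (hne z hz.2), hz.2.2 _ k.1 k.2.2⟩
  · intro z hz z' hz' e
    rw [Finset.mem_filter] at hz hz'
    have k := h.ln_spec (hne z hz.2)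
    exact (h.tangent hS hI hq k.1 k.2.1 (hz.2.2 _ k.1 k.2.2)).unique ⟨k.2.2, hz.2⟩
      ⟨e ▸ (h.ln_spec (hne z' hz'.2)).2.2, hz'.2⟩
  · intro l hl
    rw [Finset.mem_filter, mem_thru, Finset.singleton_subset_iff] at hl
    obtain ⟨z, hz, -⟩ := h.tangent hS hI hq hl.1.1 hl.1.2 hl.2
    exact ⟨z, Finset.mem_filter.2 ⟨Finset.mem_univ _, hz.2⟩, (h.eq_ln hl.1.1 (hne z hz.2) hl.1.2 hz.1).symm⟩

theorem existsUnique_hyperoval {S : Finset α} (hS : S.card = 4) (hI : Indep L S) :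
    ∃! H : Finset α, (H.card = 6 ∧ Indep L H) ∧ S ⊆ H := by
  classical
  have hc := h.card_off hS hI
  have hd : Disjoint S (Finset.univ.filter (Off L S)) :=
    Finset.disjoint_left.2 fun z hz hz' => (Finset.mem_filter.1 hz').2.1 hz
  refine ⟨S ∪ Finset.univ.filter (Off L S), ⟨⟨by rw [Finset.card_union_of_disjoint hd, hS, hc], ?_⟩,
    Finset.subset_union_left⟩, ?_⟩
  · intro l hl
    rw [Finset.inter_union_distrib_left]
    refine le_trans (Finset.card_union_le _ _) ?_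
    have k0 := hI l hl
    have k1 : (l ∩ Finset.univ.filter (Off L S)).card ≤ 2 := hc ▸ Finset.card_le_card Finset.inter_subset_right
    by_cases e0 : (l ∩ Finset.univ.filter (Off L S)).card = 0
    · omega
    obtain ⟨z, hz⟩ := Finset.card_pos.1 (Nat.pos_of_ne_zero e0)
    rw [Finset.mem_inter, Finset.mem_filter] at hz
    have k2 := hz.2.2.2 l hl hz.1
    by_cases e1 : (l ∩ S).card = 0
    · omega
    obtain ⟨q, hq⟩ := Finset.card_pos.1 (Nat.pos_of_ne_zero e1)
    rw [Finset.mem_inter] at hq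
    have k3 : (l ∩ Finset.univ.filter (Off L S)).card ≤ 1 := by
      rw [Finset.card_le_one]
      intro x hx y hy
      rw [Finset.mem_inter, Finset.mem_filter] at hx hy
      exact (h.tangent hS hI hq.2 hl hq.1 k2).unique ⟨hx.1, hx.2.2⟩ ⟨hy.1, hy.2.2⟩
    omega
  · rintro H ⟨⟨h6, hH⟩, hSH⟩
    have : H \ S = Finset.univ.filter (Off L S) := by
      apply Finset.eq_of_subset_of_card_le _ (by rw [Finset.card_sdiff_of_subset hSH, hc, h6, hS])
      intro z hz
      rw [Finset.mem_sdiff] at hz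
      refine Finset.mem_filter.2 ⟨Finset.mem_univ _, hz.2, fun l hl hzl => ?_⟩
      by_contra hcon
      obtain ⟨u, hu, v, hv, huv⟩ := Finset.one_lt_card.1 (not_le.1 hcon)
      rw [Finset.mem_inter] at hu hv
      have := three_le huv (c := z) (fun e => hz.2 (e ▸ hu.2)) (fun e => hz.2 (e ▸ hv.2)) hu.1 hv.1 hzl
        (hSH hu.2) (hSH hv.2) hz.1
      have := hH l hl; omega
    rw [← this, Finset.union_sdiff_of_subset hSH]

theorem exists_quadrangle : ∃ S : Finset α, S.card = 4 ∧ Indep L S := by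
  have ex : ∀ s : Finset α, s.card < 21 → ∃ p, p ∉ s := by
    intro s hs
    by_contra hcon
    push Not at hcon
    rw [Finset.eq_univ_of_forall hcon, Finset.card_univ, h.card] at hs
    exact lt_irrefl _ hs
  obtain ⟨a, -⟩ := ex ∅ (by simp)
  obtain ⟨b, hb⟩ := ex {a} (by simp)
  have hab : a ≠ b := fun e => hb (by simp [e])
  obtain ⟨l1, l1a, l1b⟩ := h.ln_spec hab
  obtain ⟨c, hc⟩ := ex (ln L a b) (by rw [h.five l1]; norm_num)
  have hac : a ≠ c := fun e => hc (e ▸ l1a)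
  have hbc : b ≠ c := fun e => hc (e ▸ l1b)
  obtain ⟨l2, l2a, l2c⟩ := h.ln_spec hac
  obtain ⟨l3, l3b, l3c⟩ := h.ln_spec hbc
  obtain ⟨d, hd⟩ := ex (ln L a b ∪ ln L a c ∪ ln L b c) (by
    have := Finset.card_union_le (ln L a b ∪ ln L a c) (ln L b c)
    have := Finset.card_union_le (ln L a b) (ln L a c)
    have := h.five l1
    have := h.five l2
    have := h.five l3
    omega)
  simp only [Finset.mem_union, not_or] at hd
  have had : a ≠ d := fun e => hd.1.1 (e ▸ l1a)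
  have hbd : b ≠ d := fun e => hd.1.1 (e ▸ l1b)
  have hcd : c ≠ d := fun e => hd.2 (e ▸ l3c)
  refine ⟨{a, b, c, d}, ?_, fun l hl => ?_⟩
  · rw [Finset.card_insert_of_notMem (by simp [hab, hac, had]), Finset.card_eq_three.2 ⟨_, _, _, hbc, hbd, hcd, rfl⟩]
  · have k0 : a ∈ l → b ∈ l → c ∉ l := fun h1 h2 => by
      rw [h.eq_ln hl hab h1 h2]; exact hc
    have k1 : a ∈ l → b ∈ l → d ∉ l := fun h1 h2 => by
      rw [h.eq_ln hl hab h1 h2]; exact hd.1.1
    have k2 : a ∈ l → c ∈ l → d ∉ l := fun h1 h2 => by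
      rw [h.eq_ln hl hac h1 h2]; exact hd.1.2
    have k3 : b ∈ l → c ∈ l → d ∉ l := fun h1 h2 => by
      rw [h.eq_ln hl hbc h1 h2]; exact hd.2
    rw [Finset.inter_comm, ← Finset.filter_mem_eq_inter, Finset.card_filter,
      Finset.sum_insert (by simp [hab, hac, had]), Finset.sum_insert (by simp [hbc, hbd]), Finset.sum_pair hcd]
    by_cases h1 : a ∈ l <;> by_cases h2 : b ∈ l <;> by_cases h3 : c ∈ l <;> by_cases h4 : d ∈ l <;>
      simp only [h1, h2, h3, h4, if_true, if_false] <;>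
      first | omega | exact absurd h3 (k0 h1 h2) | exact absurd h4 (k1 h1 h2) | exact absurd h4 (k2 h1 h3) |
        exact absurd h4 (k3 h2 h3)

end Pl

/-- an enumerated hyperoval -/
structure Hyp (L : Set (Finset α)) (H : Fin 6 → α) : Prop where
  inj : Function.Injective H
  ind : ∀ l ∈ L, ∀ i j k, H i ∈ l → H j ∈ l → H k ∈ l → i = j ∨ i = k ∨ j = k

omit [Fintype α] [DecidableEq α] in
theorem Hyp.comp {L : Set (Finset α)} {H : Fin 6 → α} (hH : Hyp L H) {π : Fin 6 → Fin 6}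
    (hπ : Function.Injective π) : Hyp L (H ∘ π) :=
  ⟨hH.inj.comp hπ, fun l hl i j k h1 h2 h3 => by simpa [hπ.eq_iff] using hH.ind l hl _ _ _ h1 h2 h3⟩

theorem hyp_of {L : Set (Finset α)} {S : Finset α} (hI : Indep L S) {H : Fin 6 → α} (hH : Function.Injective H)
    (hS : ∀ i, H i ∈ S) : Hyp L H := by
  refine ⟨hH, fun l hl i j k h1 h2 h3 => ?_⟩
  by_contra hcon
  push Not at hcon
  have := Pl.three_le (hH.ne hcon.1) (hH.ne hcon.2.1) (hH.ne hcon.2.2) h1 h2 h3 (hS i) (hS j) (hS k)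
  have := hI l hl; omega

namespace Pl
variable {L : Set (Finset α)} (h : Pl L)
include h

theorem exists_hyp : ∃ H, Hyp L H := by
  obtain ⟨S, h4, hI⟩ := h.exists_quadrangle
  obtain ⟨H, ⟨⟨h6, hH⟩, -⟩, -⟩ := h.existsUnique_hyperoval h4 hI
  let e : H ≃ Fin 6 := Finset.equivFinOfCardEq h6
  exact ⟨fun i => e.symm i, hyp_of hH (Subtype.val_injective.comp e.symm.injective) fun i => (e.symm i).2⟩

theorem secant {H : Fin 6 → α} (hH : Hyp L H) {l : Finset α} (hl : l ∈ L) {i : Fin 6} (hi : H i ∈ l) :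
    ∃ j, j ≠ i ∧ H j ∈ l := by
  have hne : ∀ j ∈ Finset.univ.erase i, H i ≠ H j := fun j hj => hH.inj.ne (Finset.mem_erase.1 hj).1.symm
  obtain ⟨j, hj, e⟩ := Finset.surj_on_of_inj_on_of_card_le (s := Finset.univ.erase i) (t := thru L {H i})
    (fun j _ => ln L (H i) (H j)) (fun j hj => h.ln_thru (hne j hj))
    (fun j j' hj hj' e => by
      have k := h.ln_spec (hne j hj)
      rcases hH.ind _ k.1 i j j' k.2.1 k.2.2 (e ▸ (h.ln_spec (hne j' hj')).2.2) with e | e | e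
      · exact absurd e.symm (Finset.mem_erase.1 hj).1
      · exact absurd e.symm (Finset.mem_erase.1 hj').1
      · exact e)
    (by rw [h.card_thru]; simp) l (mem_thru.2 ⟨hl, Finset.singleton_subset_iff.2 hi⟩)
  exact ⟨j, (Finset.mem_erase.1 hj).1, e ▸ (h.ln_spec (hne j hj)).2.2⟩

theorem conc {H : Fin 6 → α} (hH : Hyp L H) : ∃ p, (∀ i, p ≠ H i) ∧ p ∈ ln L (H 0) (H 1) ∧ p ∈ ln L (H 2) (H 3) ∧
    p ∈ ln L (H 4) (H 5) := by
  obtain ⟨l1, a1, b1⟩ := h.ln_spec (hH.inj.ne (show (0 : Fin 6) ≠ 1 by decide))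
  obtain ⟨l2, a2, b2⟩ := h.ln_spec (hH.inj.ne (show (2 : Fin 6) ≠ 3 by decide))
  obtain ⟨p, p1, p2⟩ := h.meet l1 l2
  have hp : ∀ i, p ≠ H i := by
    intro i e
    have k1 := hH.ind _ l1 _ _ i a1 b1 (e ▸ p1)
    have k2 := hH.ind _ l2 _ _ i a2 b2 (e ▸ p2)
    clear e; revert k1 k2 i; decide
  refine ⟨p, hp, p1, p2, ?_⟩
  obtain ⟨l3, a3, b3⟩ := h.ln_spec (hp 4)
  obtain ⟨j, hj, hj'⟩ := h.secant hH l3 b3
  have k1 : H j ∉ ln L (H 0) (H 1) := fun e => by
    have := hH.ind _ l1 _ _ 4 a1 b1 (h.uniq l1 l3 (hp j) p1 e a3 hj' ▸ b3)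
    revert this; decide
  have k2 : H j ∉ ln L (H 2) (H 3) := fun e => by
    have := hH.ind _ l2 _ _ 4 a2 b2 (h.uniq l2 l3 (hp j) p2 e a3 hj' ▸ b3)
    revert this; decide
  have : j = 5 := by
    have k3 : j ≠ 0 := fun e => k1 (e ▸ a1)
    have k4 : j ≠ 1 := fun e => k1 (e ▸ b1)
    have k5 : j ≠ 2 := fun e => k2 (e ▸ a2)
    have k6 : j ≠ 3 := fun e => k2 (e ▸ b2)
    omega
  rw [← h.eq_ln l3 (hH.inj.ne (show (4 : Fin 6) ≠ 5 by decide)) b3 (this ▸ hj')]
  exact a3

theorem ln_comm {p q : α} (hpq : p ≠ q) : ln L p q = ln L q p :=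
  h.eq_ln (h.ln_spec hpq).1 hpq.symm (h.ln_spec hpq).2.2 (h.ln_spec hpq).2.1

end Pl

/-! ### The model -/

/-- masks of the lines of the model -/
def lineM (k : ℕ) : ℕ := fld 24 0xa150010c30011188006228008a8400544400012700084a804091801212408409412004c02482210241209020a0490061c0021038011007009000e050001c3 k
/-- lines of the model -/
def ML (k : Fin 21) : Finset (Fin 21) := Finset.univ.filter fun i => tb (lineM k) i = true
/-- the synthemes as involutions -/
def mate (x : Fin 21) (a : Fin 6) : Fin 6 := Fin.ofNat 6 (fld 4 0x12345021435034125102354201534305124120453210543450123134052315042451032234501325401452301000000000000000000000000000000000000 (6 * x + a))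
/-- the synthemes as orderings -/
def synO (x : Fin 21) (a : Fin 6) : Fin 6 := Fin.ofNat 6 (fld 4 0x324150423150432150325140523140532140425130524130542130435120534120543120435210534210543210000000000000000000000000000000000000 (6 * x + a))
/-- first point of a duad -/
def dA (k : Fin 21) : Fin 6 := Fin.ofNat 6 (fld 4 0x433222111100000 k)
/-- second point of a duad -/
def dB (k : Fin 21) : Fin 6 := Fin.ofNat 6 (fld 4 0x554543543254321 k)
/-- first point of a total -/
def tA (k : Fin 21) : Fin 21 := Fin.ofNat 21 (fld 8 0x80807070606000000000000000000000000000000 k)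
/-- second point of a total -/
def tB (k : Fin 21) : Fin 21 := Fin.ofNat 21 (fld 8 0xa090b090b0a000000000000000000000000000000 k)
/-- not on a common secant -/
def nc (x y : Fin 21) : Bool := allLt (fun j => !(tb (lineM j) x && tb (lineM j) y)) 15
/-- the points of the hyperoval of the model -/
def e6 (a : Fin 6) : Fin 21 := Fin.castLE (by norm_num) a

theorem mem_ML {k x : Fin 21} : x ∈ ML k ↔ tb (lineM k) x = true := by simp [ML]

theorem mod1 : ∀ k, (ML k).card = 5 := by decide +kernel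
theorem mod2 : ∀ k x : Fin 21, k.val < 15 → tb (lineM k) x = true →
    x = e6 (dA k) ∨ x = e6 (dB k) ∨ (6 ≤ x.val ∧ mate x (dA k) = dB k) := by decide +kernel
theorem mod2' : ∀ k : Fin 21, k.val < 15 → dA k ≠ dB k := by decide +kernel
theorem mod3 : ∀ x y : Fin 21, ∃ k : Fin 21, tb (lineM k) x = true ∧ tb (lineM k) y = true := by decide +kernel
theorem mod4 : ∀ k : Fin 21, 15 ≤ k.val → tA k ≠ tB k ∧ nc (tA k) (tB k) = true ∧ ∀ x y : Fin 21,
    tb (lineM k) x = false → y ≠ tA k → y ≠ tB k → y ≠ x → x ≠ tA k ∧ x ≠ tB k ∧ (nc (tA k) x = true →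
      nc (tB k) x = true → nc (tA k) y = true → nc (tB k) y = true → nc x y = true → False) := by decide +kernel
theorem mod5 : ∀ x : Fin 21, 6 ≤ x.val → Function.Injective (synO x) ∧ ∀ a,
    (a = synO x 0 ∧ mate x a = synO x 1) ∨ (a = synO x 1 ∧ mate x a = synO x 0) ∨
    (a = synO x 2 ∧ mate x a = synO x 3) ∨ (a = synO x 3 ∧ mate x a = synO x 2) ∨
    (a = synO x 4 ∧ mate x a = synO x 5) ∨ (a = synO x 5 ∧ mate x a = synO x 4) := by decide +kernel
theorem mod6 : ∀ x y : Fin 21, 6 ≤ x.val → 6 ≤ y.val → x ≠ y → ∃ a, mate x a ≠ mate y a ∧ a ≠ mate x a ∧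
    a ≠ mate y a := by decide +kernel

namespace Pl
variable {L : Set (Finset α)} (h : Pl L)
include h

theorem syn_point {H : Fin 6 → α} (hH : Hyp L H) (x : Fin 21) :
    ∃ p, 6 ≤ x.val → (∀ i, p ≠ H i) ∧ ∀ a, p ∈ ln L (H a) (H (mate x a)) := by
  by_cases hx : 6 ≤ x.val
  · obtain ⟨m1, m2⟩ := mod5 x hx
    obtain ⟨p, k0, k1, k2, k3⟩ := h.conc (hH.comp m1)
    simp only [Function.comp] at k0 k1 k2 k3
    refine ⟨p, fun _ => ⟨fun i => ?_, fun a => ?_⟩⟩
    · obtain ⟨j, rfl⟩ := Finite.injective_iff_surjective.1 m1 i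
      exact k0 j
    · have c : ∀ i j, i ≠ j → ln L (H (synO x i)) (H (synO x j)) = ln L (H (synO x j)) (H (synO x i)) :=
        fun i j hij => h.ln_comm (hH.inj.ne (m1.ne hij))
      rcases m2 a with e | e | e | e | e | e <;> rw [e.2, e.1]
      · exact k1
      · rw [c _ _ (by decide)]; exact k1
      · exact k2
      · rw [c _ _ (by decide)]; exact k2
      · exact k3
      · rw [c _ _ (by decide)]; exact k3
  · exact ⟨H 0, fun h' => absurd h' hx⟩

/-- the plane is determined by an enumerated hyperoval -/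
theorem frame {H : Fin 6 → α} (hH : Hyp L H) :
    ∃ f : Fin 21 ≃ α, (∀ a, f (e6 a) = H a) ∧ ∀ l, l ∈ L ↔ ∃ k, l = (ML k).image f := by
  choose P hP using h.syn_point hH
  let f : Fin 21 → α := fun x => if hx : x.val < 6 then H ⟨x, hx⟩ else P x
  have f1 : ∀ a, f (e6 a) = H a := fun a => dif_pos a.2
  have f2 : ∀ x : Fin 21, 6 ≤ x.val → f x = P x := fun x hx => dif_neg (not_lt.2 hx)
  have hcases : ∀ x : Fin 21, (∃ a, x = e6 a) ∨ 6 ≤ x.val := by decide
  have hinj : Function.Injective f := by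
    intro x y e
    rcases hcases x with ⟨a, rfl⟩ | hx <;> rcases hcases y with ⟨b, rfl⟩ | hy
    · rw [f1, f1] at e; rw [hH.inj e]
    · rw [f1, f2 y hy] at e; exact absurd e.symm ((hP y hy).1 a)
    · rw [f1, f2 x hx] at e; exact absurd e ((hP x hx).1 b)
    · rw [f2 x hx, f2 y hy] at e
      by_contra hne
      obtain ⟨a, k1, k2, k3⟩ := mod6 x y hx hy hne
      obtain ⟨l1, a1, b1⟩ := h.ln_spec (hH.inj.ne k2)
      obtain ⟨l2, a2, b2⟩ := h.ln_spec (hH.inj.ne k3)
      have e1 := h.uniq l1 l2 ((hP x hx).1 a) ((hP x hx).2 a) a1 (e ▸ (hP y hy).2 a) a2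
      rcases hH.ind _ l1 _ _ _ a1 b1 (e1 ▸ b2) with e | e | e
      exacts [k2 e, k3 e, k1 e]
  have hbij : Function.Bijective f := (Fintype.bijective_iff_injective_and_card f).2 ⟨hinj, by simp [h.card]⟩
  have hduad : ∀ k : Fin 21, k.val < 15 → (ML k).image f ∈ L := by
    intro k hk
    obtain ⟨l1, a1, b1⟩ := h.ln_spec (hH.inj.ne (mod2' k hk))
    rw [Finset.eq_of_subset_of_card_le (t := ln L (H (dA k)) (H (dB k))) (s := (ML k).image f) ?_
      (by rw [Finset.card_image_of_injective _ hinj, mod1, h.five l1])]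
    · exact l1
    · intro p hp
      obtain ⟨x, hx, rfl⟩ := Finset.mem_image.1 hp
      rcases mod2 k x hk (mem_ML.1 hx) with e | e | e
      · rw [e, f1]; exact a1
      · rw [e, f1]; exact b1
      · rw [f2 x e.1, ← e.2]; exact (hP x e.1).2 _
  have hall : ∀ k : Fin 21, (ML k).image f ∈ L := by
    intro k
    by_cases hk : k.val < 15
    · exact hduad k hk
    obtain ⟨m1, m2, m3⟩ := mod4 k (not_lt.1 hk)
    obtain ⟨l1, a1, b1⟩ := h.ln_spec (hinj.ne m1)
    set l := ln L (f (tA k)) (f (tB k))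
    have hnc : ∀ x y, x ≠ y → f x ∈ l → f y ∈ l → nc x y = true := by
      intro x y hxy hx hy
      rw [nc, allLt_iff] at m2 ⊢
      intro j hj
      by_contra hcon
      simp only [Bool.not_eq_true', Bool.not_eq_false, Bool.and_eq_true] at hcon
      have e := h.uniq l1 (hduad ⟨j, by omega⟩ hj) (hinj.ne hxy) hx hy
        (Finset.mem_image_of_mem _ (mem_ML.2 hcon.1)) (Finset.mem_image_of_mem _ (mem_ML.2 hcon.2))
      have k1 := m2 j hj
      rw [e, hinj.mem_finset_image, mem_ML] at a1 b1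
      simp only at a1 b1
      rw [a1, b1] at k1
      exact absurd k1 (by decide)
    rw [← Finset.eq_of_subset_of_card_le (s := l) (t := (ML k).image f) ?_
      (by rw [Finset.card_image_of_injective _ hinj, mod1, h.five l1])]
    · exact l1
    · intro p hp
      obtain ⟨x, rfl⟩ := hbij.2 p
      rw [hinj.mem_finset_image, mem_ML]
      by_contra hx
      rw [Bool.not_eq_true] at hx
      obtain ⟨q, hq, hq'⟩ : ∃ q ∈ l, q ∉ ({f (tA k), f (tB k), f x} : Finset α) := by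
        by_contra hcon
        push Not at hcon
        have k1 := Finset.card_le_card (show l ⊆ _ from hcon)
        have k2 := Finset.card_le_three (a := f (tA k)) (b := f (tB k)) (c := f x)
        rw [h.five l1] at k1
        omega
      obtain ⟨y, rfl⟩ := hbij.2 q
      simp only [Finset.mem_insert, Finset.mem_singleton, hinj.eq_iff, not_or] at hq'
      obtain ⟨k1, k2, k3⟩ := m3 x y hx hq'.1 hq'.2.1 hq'.2.2
      exact k3 (hnc _ _ k1.symm a1 hp) (hnc _ _ k2.symm b1 hp) (hnc _ _ (Ne.symm hq'.1) a1 hq)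
        (hnc _ _ (Ne.symm hq'.2.1) b1 hq) (hnc _ _ (Ne.symm hq'.2.2) hp hq)
  refine ⟨Equiv.ofBijective f hbij, f1, fun l => ⟨fun hl => ?_, ?_⟩⟩
  · obtain ⟨p, hp, q, hq, hpq⟩ := Finset.one_lt_card.1 (show 1 < l.card by rw [h.five hl]; norm_num)
    obtain ⟨x, rfl⟩ := hbij.2 p
    obtain ⟨y, rfl⟩ := hbij.2 q
    obtain ⟨k, k1, k2⟩ := mod3 x y
    exact ⟨k, h.uniq hl (hall k) hpq hp hq (Finset.mem_image_of_mem _ (mem_ML.2 k1))
      (Finset.mem_image_of_mem _ (mem_ML.2 k2))⟩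
  · rintro ⟨k, rfl⟩; exact hall k

end Pl

theorem iso_of_hyp {β : Type*} [Fintype β] [DecidableEq β] {L : Set (Finset α)} {L' : Set (Finset β)} (h : Pl L)
    (h' : Pl L') {H : Fin 6 → α} {H' : Fin 6 → β} (hH : Hyp L H) (hH' : Hyp L' H') :
    ∃ e : α ≃ β, (∀ a, e (H a) = H' a) ∧ (fun b => b.image e) '' L = L' := by
  obtain ⟨f, f1, f2⟩ := h.frame hH
  obtain ⟨g, g1, g2⟩ := h'.frame hH'
  refine ⟨f.symm.trans g, fun a => by rw [← f1, ← g1]; simp, ?_⟩
  have key : ∀ k, ((ML k).image f).image (f.symm.trans g) = (ML k).image g := fun k => by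
    rw [Finset.image_image]; congr 1; funext x; simp
  ext l
  constructor
  · rintro ⟨b, hb, rfl⟩
    obtain ⟨k, rfl⟩ := (f2 b).1 hb
    exact (g2 _).2 ⟨k, key k⟩
  · intro hl
    obtain ⟨k, rfl⟩ := (g2 l).1 hl
    exact ⟨_, (f2 _).2 ⟨k, rfl⟩, key k⟩

end CA.Gol.St
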