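import Mathlib
import Cfsg.Prelude.Def_Sporadic_a

/-!
Counting in Steiner systems.
-/

set_option autoImplicit false

namespace CA.Gol.St
open Cfsg

variable {α : Type*} [Fintype α] [DecidableEq α]

open Classical in
/-- the blocks containing `s` -/
noncomputable def thru (B : Set (Finset α)) (s : Finset α) : Finset (Finset α) :=
  Finset.univ.filter fun b => b ∈ B ∧ s ⊆ b

theorem mem_thru {B : Set (Finset α)} {s b : Finset α} : b ∈ thru B s ↔ b ∈ B ∧ s ⊆ b := by simp [thru]

theorem card_thru_top {B : Set (Finset α)} {t k : ℕ} (hB : IsSteinerSystem t k B) {s : Finset α}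
    (hs : s.card = t) : (thru B s).card = 1 := by
  obtain ⟨b, hb, hu⟩ := hB.2 s hs
  rw [Finset.card_eq_one]
  refine ⟨b, Finset.eq_singleton_iff_unique_mem.2 ⟨mem_thru.2 hb, fun b' hb' => hu b' (mem_thru.1 hb')⟩⟩

theorem card_thru_step {B : Set (Finset α)} {k : ℕ} (hk : ∀ b ∈ B, b.card = k) {s : Finset α} {m : ℕ}
    (h : ∀ p ∉ s, (thru B (insert p s)).card = m) :
    (thru B s).card * (k - s.card) = (Fintype.card α - s.card) * m := by
  have h1 := Finset.sum_card_bipartiteAbove_eq_sum_card_bipartiteBelow (s := thru B s) (t := Finset.univ \ s)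
    (fun b p => p ∈ b)
  rw [Finset.sum_congr rfl (g := fun _ => k - s.card), Finset.sum_congr rfl (s₁ := Finset.univ \ s)
    (g := fun _ => m)] at h1
  · simpa [Finset.card_univ_sdiff] using h1
  · intro p hp
    rw [← h p (Finset.mem_sdiff.1 hp).2]
    congr 1
    ext b
    simp only [Finset.mem_bipartiteBelow, mem_thru, Finset.insert_subset_iff]
    tauto
  · intro b hb
    rw [mem_thru] at hb
    rw [← hk b hb.1, ← Finset.card_sdiff_of_subset hb.2]
    congr 1
    ext p
    simp only [Finset.mem_bipartiteAbove, Finset.mem_sdiff, Finset.mem_univ, true_and]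
    tauto

theorem card_thru_of {B : Set (Finset α)} {k i m m' : ℕ} (hk : ∀ b ∈ B, b.card = k)
    (h : ∀ s : Finset α, s.card = i + 1 → (thru B s).card = m) (hi : i < k)
    (e : m' * (k - i) = (Fintype.card α - i) * m) (s : Finset α) (hs : s.card = i) : (thru B s).card = m' := by
  have := card_thru_step hk (s := s) (m := m) fun p hp => h _ (by rw [Finset.card_insert_of_notMem hp, hs])
  rw [hs, ← e] at this
  exact Nat.eq_of_mul_eq_mul_right (by omega) this

theorem sum_choose {B : Set (Finset α)} (Y : Finset α) {i m : ℕ}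
    (h : ∀ s : Finset α, s.card = i → (thru B s).card = m) :
    ∑ b ∈ thru B ∅, (b ∩ Y).card.choose i = Y.card.choose i * m := by
  have h1 := Finset.sum_card_bipartiteAbove_eq_sum_card_bipartiteBelow (s := thru B ∅) (t := Y.powersetCard i)
    (fun b s => s ⊆ b)
  rw [Finset.sum_congr rfl (g := fun b => (b ∩ Y).card.choose i), Finset.sum_congr rfl (s₁ := Y.powersetCard i)
    (g := fun _ => m)] at h1
  · simpa using h1
  · intro s hs
    rw [← h s (Finset.mem_powersetCard.1 hs).2]
    congr 1
    ext b
    simp [Finset.mem_bipartiteBelow, mem_thru]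
  · intro b _
    rw [← Finset.card_powersetCard]
    congr 1
    ext s
    simp only [Finset.mem_bipartiteAbove, Finset.mem_powersetCard, Finset.subset_inter_iff]
    tauto

theorem sum_by_meet {B : Set (Finset α)} (Y : Finset α) (g : ℕ → ℕ) :
    ∑ b ∈ thru B ∅, g (b ∩ Y).card =
      ∑ j ∈ Finset.range (Y.card + 1), {b : Finset α | b ∈ B ∧ (b ∩ Y).card = j}.ncard * g j := by
  rw [← Finset.sum_fiberwise_of_maps_to (t := Finset.range (Y.card + 1)) (g := fun b => (b ∩ Y).card)
    (fun b _ => Finset.mem_range.2 (Nat.lt_succ_of_le (Finset.card_le_card Finset.inter_subset_right)))]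
  refine Finset.sum_congr rfl fun j _ => ?_
  rw [Finset.sum_congr rfl (g := fun _ => g j) fun b hb => by rw [(Finset.mem_filter.1 hb).2],
    Finset.sum_const, smul_eq_mul, ← Set.ncard_coe_finset]
  congr 2
  ext b
  simp [mem_thru]

end CA.Gol.St
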